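import Mathlib
import Cfsg.Agent.CharBasics.Induced

/-!
Representations with the same character are equivalent.
-/

set_option autoImplicit false

namespace CfsgLib.Clifford

open CfsgLib.CharBasics Representation

universe u

variable {G : Type u} [Group G]

/-- An injective intertwining map out of an irreducible constituent. -/
theorem exists_injective_intertwining [Fintype G] {n m : ℕ} (τ : Representation ℂ G (Fin m → ℂ))
    [τ.IsIrreducible] (ρ : Representation ℂ G (Fin n → ℂ))
    (h : Cfsg.classInner ρ.character τ.character ≠ 0) :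
    ∃ f : IntertwiningMap τ ρ, Function.Injective f := by
  classical
  have : Invertible (Nat.card G : ℂ) := invertibleOfNonzero (Nat.cast_ne_zero.mpr Nat.card_pos.ne')
  have h1 := Representation.card_inv_mul_sum_char_mul_char_eq_finrank τ ρ
  rw [classInner_eq, Finset.sum_congr rfl (g := fun g => ρ.character g * τ.character g⁻¹) fun g _ => by
    rw [apply_inv (isCharacter_rep τ) g], h1, Nat.cast_ne_zero] at h
  have : Nontrivial (IntertwiningMap τ ρ) :=
    (Module.finrank_pos_iff (R := ℂ)).mp (Nat.pos_of_ne_zero h)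
  obtain ⟨f, hf⟩ := exists_ne (0 : IntertwiningMap τ ρ)
  exact ⟨f, (IsIrreducible.injective_or_eq_zero f).resolve_right hf⟩

/-- A subrepresentation and a complement. -/
theorem exists_split [Finite G] {n m : ℕ} (τ : Representation ℂ G (Fin m → ℂ))
    (ρ : Representation ℂ G (Fin n → ℂ)) (f : IntertwiningMap τ ρ) (hf : Function.Injective f) :
    ∃ (k : ℕ) (ρ' : Representation ℂ G (Fin k → ℂ)) (e : ((Fin m → ℂ) × (Fin k → ℂ)) ≃ₗ[ℂ] (Fin n → ℂ)),
      m + k = n ∧ ∀ g x, e (τ g x.1, ρ' g x.2) = ρ g (e x) := by
  have : NeZero (Nat.card G : ℂ) := ⟨Nat.cast_ne_zero.mpr Nat.card_pos.ne'⟩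
  let W : Subrepresentation ρ := ⟨LinearMap.range f.toLinearMap, by
    rintro g v ⟨x, rfl⟩
    exact ⟨τ g x, IntertwiningMap.isIntertwining _ _ f g x⟩⟩
  obtain ⟨U, hU⟩ := exists_isCompl W
  have hc : IsCompl W.toSubmodule U.toSubmodule := by
    constructor
    · rw [disjoint_iff]
      exact congrArg Subrepresentation.toSubmodule hU.inf_eq_bot
    · rw [codisjoint_iff]
      exact congrArg Subrepresentation.toSubmodule hU.sup_eq_top
  let bU := (Module.finBasis ℂ U.toSubmodule).equivFun
  let eW : (Fin m → ℂ) ≃ₗ[ℂ] W.toSubmodule := LinearEquiv.ofInjective f.toLinearMap hf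
  refine ⟨Module.finrank ℂ U.toSubmodule, repConj bU U.toRepresentation,
    (LinearEquiv.prodCongr eW bU.symm).trans (Submodule.prodEquivOfIsCompl _ _ hc), ?_, fun g x => ?_⟩
  · have h := Submodule.finrank_add_eq_of_isCompl hc
    rw [← eW.finrank_eq, Module.finrank_fin_fun, Module.finrank_fin_fun] at h
    exact h
  · simp only [LinearEquiv.trans_apply, LinearEquiv.prodCongr_apply, Submodule.coe_prodEquivOfIsCompl',
      map_add, eW, LinearEquiv.ofInjective_apply, repConj_apply, LinearEquiv.conj_apply, LinearMap.comp_apply,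
      LinearEquiv.coe_coe, LinearEquiv.symm_apply_apply]
    congr 1
    exact IntertwiningMap.isIntertwining _ _ f g x.1

theorem character_split [Finite G] {n m k : ℕ} {τ : Representation ℂ G (Fin m → ℂ)}
    {ρ : Representation ℂ G (Fin n → ℂ)} {ρ' : Representation ℂ G (Fin k → ℂ)}
    (e : ((Fin m → ℂ) × (Fin k → ℂ)) ≃ₗ[ℂ] (Fin n → ℂ))
    (he : ∀ g x, e (τ g x.1, ρ' g x.2) = ρ g (e x)) (g : G) :
    ρ.character g = τ.character g + ρ'.character g := by
  have h : e.conj ((τ g).prodMap (ρ' g)) = ρ g := LinearMap.ext fun v => by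
    obtain ⟨x, rfl⟩ := e.surjective v
    rw [LinearEquiv.conj_apply_apply, LinearEquiv.symm_apply_apply]
    exact he g x
  simp only [Representation.character]
  rw [← h, LinearMap.trace_conj', LinearMap.trace_prodMap']

/-- Equal characters give equivalent representations. -/
theorem nonempty_equiv_fin [Fintype G] : ∀ (n : ℕ) (ρ σ : Representation ℂ G (Fin n → ℂ)),
    ρ.character = σ.character →
      ∃ E : (Fin n → ℂ) ≃ₗ[ℂ] (Fin n → ℂ), ∀ g x, E (ρ g x) = σ g (E x) := by
  intro n
  induction n using Nat.strong_induction_on with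
  | _ n ih =>
    intro ρ σ h
    rcases Nat.eq_zero_or_pos n with rfl | hn
    · exact ⟨LinearEquiv.refl ℂ _, fun g x => Subsingleton.elim _ _⟩
    have h1 : ρ.character 1 ≠ 0 := by
      rw [Representation.char_one, Module.finrank_fin_fun]
      exact Nat.cast_ne_zero.mpr hn.ne'
    obtain ⟨ψ, j, hj, hje⟩ := exists_constituent (isCharacter_rep ρ) h1
    obtain ⟨m, τ, hτ, hτψ⟩ := ψ.2
    have hne : Cfsg.classInner ρ.character τ.character ≠ 0 := by
      rw [hτψ, hje]
      exact Nat.cast_ne_zero.mpr hj.ne'
    haveI := hτ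
    have hm : 0 < m := by
      have := charDegree_pos ψ.2
      rw [Cfsg.charDegree, ← hτψ, Representation.char_one, Module.finrank_fin_fun, Complex.natCast_re,
        Nat.floor_natCast] at this
      exact this
    obtain ⟨f, hf⟩ := exists_injective_intertwining τ ρ hne
    obtain ⟨f', hf'⟩ := exists_injective_intertwining τ σ (h ▸ hne)
    obtain ⟨k, ρ', e, hk, he⟩ := exists_split τ ρ f hf
    obtain ⟨k', σ', e', hk', he'⟩ := exists_split τ σ f' hf'
    obtain rfl : k' = k := by omega
    have hchar : ρ'.character = σ'.character := funext fun g => by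
      have h2 := character_split e he g
      rw [h, character_split e' he' g] at h2
      exact (add_left_cancel h2).symm
    obtain ⟨E, hE⟩ := ih k' (by omega) ρ' σ' hchar
    refine ⟨e.symm.trans ((LinearEquiv.prodCongr (LinearEquiv.refl ℂ _) E).trans e'), fun g x => ?_⟩
    obtain ⟨y, rfl⟩ := e.surjective x
    rw [← he g y]
    simp only [LinearEquiv.trans_apply, LinearEquiv.symm_apply_apply, LinearEquiv.prodCongr_apply,
      LinearEquiv.refl_apply]
    rw [hE]
    exact he' g (y.1, E y.2)

/-- Representations with equal characters are equivalent. -/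
theorem nonempty_equiv_of_char [Finite G] {V W : Type*} [AddCommGroup V] [Module ℂ V] [FiniteDimensional ℂ V]
    [AddCommGroup W] [Module ℂ W] [FiniteDimensional ℂ W] (ρ : Representation ℂ G V) (σ : Representation ℂ G W)
    (h : ρ.character = σ.character) : Nonempty (ρ.Equiv σ) := by
  classical
  have := Fintype.ofFinite G
  have hd : Module.finrank ℂ V = Module.finrank ℂ W := by
    have h1 := congrFun h 1
    rw [Representation.char_one, Representation.char_one] at h1
    exact_mod_cast h1
  let a := (Module.finBasis ℂ V).equivFun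
  let b := ((Module.finBasis ℂ W).reindex (finCongr hd.symm)).equivFun
  obtain ⟨E, hE⟩ := nonempty_equiv_fin _ (repConj a ρ) (repConj b σ)
    (by rw [repConj_character, repConj_character, h])
  refine ⟨Representation.Equiv.mk (a.trans (E.trans b.symm)) fun g => LinearMap.ext fun v => ?_⟩
  have h2 := hE g (a v)
  simp only [repConj_apply, LinearEquiv.conj_apply, LinearMap.comp_apply, LinearEquiv.coe_coe,
    LinearEquiv.symm_apply_apply] at h2
  simp only [LinearMap.comp_apply, LinearEquiv.coe_coe, LinearEquiv.trans_apply, h2,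
    LinearEquiv.symm_apply_apply]

end CfsgLib.Clifford
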