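import Mathlib
import Cfsg.Agent.Clifford.CosetAvg

/-!
An irreducible character over an abelian chief factor.
-/

set_option autoImplicit false

namespace CfsgLib.Clifford

open scoped ComplexConjugate
open CfsgLib.CharBasics

universe u

variable {K : Type u} [Group K]

/-- If no nontrivial linear character of the abelian quotient fixes `θ`, the restriction is irreducible. -/
theorem restrict_norm_one_of_free [Fintype K] (N : Subgroup K) [N.Normal] [Fintype N]
    (hab : ∀ x y : K, x * y * x⁻¹ * y⁻¹ ∈ N) {θ : K → ℂ} (hθ : Cfsg.IsIrrCharacter K θ)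
    (hfree : ∀ l : (K ⧸ N) →* ℂˣ, (∀ k : K, (l k : ℂ) * θ k = θ k) → l = 1) :
    Cfsg.classInner (fun n : N => θ n) (fun n : N => θ n) = 1 := by
  classical
  letI : CommGroup (K ⧸ N) :=
    { (inferInstance : Group (K ⧸ N)) with
      mul_comm := by
        intro a b
        obtain ⟨x, rfl⟩ := QuotientGroup.mk_surjective a
        obtain ⟨y, rfl⟩ := QuotientGroup.mk_surjective b
        rw [← QuotientGroup.mk_mul, ← QuotientGroup.mk_mul, QuotientGroup.eq]
        have := hab y⁻¹ x⁻¹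
        simpa [mul_assoc] using this }
  have hcard : Nat.card ((K ⧸ N) →* ℂˣ) = N.index :=
    CommGroup.card_monoidHom_of_hasEnoughRootsOfUnity (K ⧸ N) ℂ
  haveI : Finite ((K ⧸ N) →* ℂˣ) :=
    Nat.finite_of_card_ne_zero (hcard ▸ Subgroup.index_ne_zero_of_finite)
  letI := Fintype.ofFinite ((K ⧸ N) →* ℂˣ)
  let f : ((K ⧸ N) →* ℂˣ) → K → ℂ := fun l k => (l k : ℂ) * θ k
  have hf : ∀ l, Cfsg.IsIrrCharacter K (f l) := fun l =>
    isIrrCharacter_linear_mul hθ ((Units.coeHom ℂ).comp (l.comp (QuotientGroup.mk' N)))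
  have hinj : Function.Injective f := by
    intro a b h
    refine inv_mul_eq_one.mp (hfree (a⁻¹ * b) fun k => ?_)
    have h1 : (a (k : K ⧸ N) : ℂ) * θ k = (b (k : K ⧸ N) : ℂ) * θ k := congrFun h k
    simp only [MonoidHom.mul_apply, MonoidHom.inv_apply, Units.val_mul, Units.val_inv_eq_inv_val]
    rw [mul_assoc, ← h1, inv_mul_cancel_left₀ (Units.ne_zero _)]
  let S : K → ℂ := ∑ l, f l
  have hSS : Cfsg.classInner S S = (N.index : ℂ) := by
    have hone : ∀ l : (K ⧸ N) →* ℂˣ, Cfsg.classInner (f l) S = 1 := fun l => by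
      rw [classInner_sum_right, Finset.sum_eq_single l]
      · exact classInner_self (hf l)
      · intro j _ hj
        exact classInner_ne (hf l) (hf j) fun h => hj (hinj h).symm
      · simp
    rw [classInner_sum_left, Finset.sum_congr rfl fun l _ => hone l, Finset.sum_const, Finset.card_univ,
      nsmul_one, ← Nat.card_eq_fintype_card, hcard]
  have hS : ∀ k : K, S k = if k ∈ N then (N.index : ℂ) * θ k else 0 := by
    intro k
    simp only [S, Finset.sum_apply, f, ← Finset.sum_mul]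
    split_ifs with hk
    · have hk1 : (k : K ⧸ N) = 1 := (QuotientGroup.eq_one_iff k).mpr hk
      simp only [hk1, map_one, Units.val_one, Finset.sum_const, Finset.card_univ, nsmul_one,
        ← Nat.card_eq_fintype_card, hcard]
    · have hk1 : (k : K ⧸ N) ≠ 1 := fun h => hk ((QuotientGroup.eq_one_iff k).mp h)
      obtain ⟨l0, hl0⟩ := CommGroup.exists_apply_ne_one_of_hasEnoughRootsOfUnity (K ⧸ N) ℂ hk1
      have h1 : (l0 (k : K ⧸ N) : ℂ) * ∑ l : (K ⧸ N) →* ℂˣ, (l (k : K ⧸ N) : ℂ) =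
          ∑ l : (K ⧸ N) →* ℂˣ, (l (k : K ⧸ N) : ℂ) := by
        rw [Finset.mul_sum]
        exact Fintype.sum_equiv (Equiv.mulLeft l0) _ _ fun l => by simp
      have h2 : (l0 (k : K ⧸ N) : ℂ) ≠ 1 := fun h => hl0 (Units.ext h)
      have h3 := sub_mul (l0 (k : K ⧸ N) : ℂ) 1 (∑ l : (K ⧸ N) →* ℂˣ, (l (k : K ⧸ N) : ℂ))
      rw [h1, one_mul, sub_self] at h3
      rw [(mul_eq_zero.mp h3).resolve_left (sub_ne_zero.mpr h2), zero_mul]
  rw [classInner_eq, Finset.sum_congr rfl fun k _ => by rw [hS k]] at hSS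
  have hsplit : ∑ k : K, (if k ∈ N then (N.index : ℂ) * θ k else 0) *
      conj (if k ∈ N then (N.index : ℂ) * θ k else 0) =
      (N.index : ℂ) ^ 2 * ∑ n : N, θ n * conj (θ n) := by
    rw [Finset.mul_sum, ← Finset.sum_subtype (Finset.univ.filter (fun k : K => k ∈ N)) (by simp)
      (fun k => (N.index : ℂ) ^ 2 * (θ k * conj (θ k))), Finset.sum_filter]
    refine Finset.sum_congr rfl fun k _ => ?_
    split_ifs with hk
    · rw [map_mul, Complex.conj_natCast]; ring
    · simp
  rw [hsplit, ← N.index_mul_card, Nat.cast_mul] at hSS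
  rw [classInner_eq]
  have hN0 : (Nat.card N : ℂ) ≠ 0 := Nat.cast_ne_zero.mpr Nat.card_pos.ne'
  have hi0 : (N.index : ℂ) ≠ 0 := Nat.cast_ne_zero.mpr Subgroup.index_ne_zero_of_finite
  refine mul_left_cancel₀ hi0 ?_
  rw [mul_one]
  conv_rhs => rw [← hSS]
  field_simp

end CfsgLib.Clifford
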