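import Mathlib
import Cfsg.Agent.S4448
import Cfsg.Agent.S4449
import Cfsg.Agent.Clifford.SylowExt
import Cfsg.Agent.Clifford.Gallagher
import Cfsg.Agent.CharBasics.Extra

/-!
An invariant character above an invariant character of a normal subgroup `N ≤ G` of `Γ` when `[Γ : G]` and
`[G : N]` are coprime.  The group of pairs `(g, T)` of determinant one reduces to a linear character, hence
to a central one, where the part of the centre of order prime to `[G : N]` splits off.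
-/

set_option autoImplicit false

namespace CfsgLib.Clifford

open CfsgLib.CharBasics

universe u

set_option maxHeartbeats 1000000 in
/-- The central linear case. -/
theorem exists_invariant_central {Q : Type u} [Group Q] [Fintype Q] (L Z : Subgroup Q) [hL : L.Normal]
    [Fintype L] (hZL : Z ≤ L) (hZc : Z ≤ Subgroup.center Q) (hcop : L.index.Coprime (Z.relIndex L))
    (hsolv : Group.IsSolvable (Q ⧸ L) ∨ ∀ q : (Z.subgroupOf L).Normal, Group.IsSolvable (L ⧸ Z.subgroupOf L))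
    (μ : Z →* ℂ) :
    ∃ β : L → ℂ, Cfsg.IsIrrCharacter L β ∧
      (∀ (x : Q) (g g' : L), (g' : Q) = x * g * x⁻¹ → β g' = β g) ∧
      ∀ z : Z, β ⟨z, hZL z.2⟩ = β 1 * μ z := by
  classical
  set n := Z.relIndex L with hn
  have hcomm : ∀ z ∈ Z, ∀ x : Q, x * z = z * x := fun z hz x => Subgroup.mem_center_iff.1 (hZc hz) x
  -- the part of `Z` of order prime to `n`
  let B : Subgroup Q :=
    { carrier := {z | z ∈ Z ∧ (orderOf z).Coprime n}
      one_mem' := ⟨Z.one_mem, by simp⟩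
      mul_mem' := by
        rintro a b ⟨ha, ha'⟩ ⟨hb, hb'⟩
        refine ⟨Z.mul_mem ha hb, Nat.Coprime.coprime_dvd_left ?_ (Nat.Coprime.mul_left ha' hb')⟩
        exact ((show Commute a b from hcomm b hb a).orderOf_mul_dvd_lcm).trans (Nat.lcm_dvd_mul _ _)
      inv_mem' := by
        rintro a ⟨ha, ha'⟩
        exact ⟨Z.inv_mem ha, by rwa [orderOf_inv]⟩ }
  have hBZ : B ≤ Z := fun z hz => hz.1
  have hBL : B ≤ L := hBZ.trans hZL
  have hBc : ∀ b ∈ B, ∀ x : Q, x * b = b * x := fun b hb => hcomm b (hBZ hb)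
  have hBq : ∀ q : ℕ, q.Prime → q ∣ Nat.card B → ¬ q ∣ n := by
    intro q hq hd hqn
    haveI := Fact.mk hq
    obtain ⟨x, hx⟩ := exists_prime_orderOf_dvd_card' q hd
    have h := x.2.2
    rw [Subgroup.orderOf_coe, hx] at h
    exact (hq.coprime_iff_not_dvd.1 h) hqn
  have hRq : ∀ q : ℕ, q.Prime → q ∣ B.relIndex L → q ∣ n := by
    intro q hq hd
    haveI := Fact.mk hq
    rw [← Subgroup.relIndex_mul_relIndex B Z L hBZ hZL] at hd
    rcases hq.dvd_mul.1 hd with hd' | hd'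
    swap
    · exact hd'
    by_contra hqn
    haveI : (B.subgroupOf Z).Normal := ⟨fun b hb g => by
      rw [Subgroup.mem_subgroupOf] at hb ⊢
      simpa [Subgroup.coe_mul, hBc _ hb (g : Q)] using hb⟩
    obtain ⟨x, hx⟩ := exists_prime_orderOf_dvd_card' (G := Z ⧸ B.subgroupOf Z) q hd'
    obtain ⟨z, rfl⟩ := QuotientGroup.mk_surjective x
    have h1 : z ^ q ∈ B.subgroupOf Z := by
      rw [← QuotientGroup.eq_one_iff, QuotientGroup.mk_pow, ← hx, pow_orderOf_eq_one]
    rw [Subgroup.mem_subgroupOf, Subgroup.coe_pow] at h1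
    have h2 : z ∈ B.subgroupOf Z := by
      rw [Subgroup.mem_subgroupOf]
      refine ⟨z.2, Nat.Coprime.coprime_dvd_left ?_
        (Nat.Coprime.mul_left (hq.coprime_iff_not_dvd.2 hqn) h1.2)⟩
      refine orderOf_dvd_of_pow_eq_one ?_
      rw [pow_mul, pow_orderOf_eq_one]
    rw [(QuotientGroup.eq_one_iff z).2 h2, orderOf_one] at hx
    exact hq.one_lt.ne hx
  have hcBR : (Nat.card B).Coprime (B.relIndex L) :=
    Nat.coprime_of_dvd fun q hq h1 h2 => hBq q hq h1 (hRq q hq h2)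
  -- its complement
  haveI : (B.subgroupOf L).Normal := ⟨fun b hb g => by
    rw [Subgroup.mem_subgroupOf] at hb ⊢
    simpa [Subgroup.coe_mul, hBc _ hb (g : Q)] using hb⟩
  obtain ⟨K, hK⟩ := Subgroup.exists_right_complement'_of_coprime (N := B.subgroupOf L) (by
    rw [Nat.card_congr (Subgroup.subgroupOfEquivOfLe hBL).toEquiv]
    exact hcBR)
  let H₀ : Subgroup Q := K.map L.subtype
  have hH₀L : H₀ ≤ L := Subgroup.map_subtype_le K
  have hcardH : Nat.card H₀ = B.relIndex L := by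
    rw [Subgroup.card_map_of_injective L.subtype_injective, Subgroup.relIndex, hK.symm.index_eq_card]
  have hdec : ∀ g ∈ L, ∃ h ∈ H₀, ∃ b ∈ B, g = h * b := by
    intro g hg
    obtain ⟨⟨⟨b, hb⟩, ⟨k, hk⟩⟩, hbk⟩ := hK.2 (⟨g, hg⟩ : L)
    refine ⟨(k : Q), Subgroup.mem_map_of_mem _ hk, (b : Q), hb, ?_⟩
    exact (congrArg Subtype.val hbk).symm.trans (hBc (b : Q) hb (k : Q)).symm
  have hpowH : ∀ x ∈ H₀, x ^ Nat.card H₀ = 1 := fun x hx =>
    congrArg Subtype.val (pow_card_eq_one' (x := (⟨x, hx⟩ : H₀)))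
  have hpowB : ∀ x ∈ B, x ^ Nat.card B = 1 := fun x hx =>
    congrArg Subtype.val (pow_card_eq_one' (x := (⟨x, hx⟩ : B)))
  have hdisj : ∀ x ∈ H₀, x ∈ B → x = 1 := fun x hx hx' => by
    have h : x ^ Nat.gcd (Nat.card H₀) (Nat.card B) = 1 := pow_gcd_eq_one.2 ⟨hpowH x hx, hpowB x hx'⟩
    rwa [show Nat.gcd (Nat.card H₀) (Nat.card B) = 1 by rw [hcardH]; exact hcBR.symm, pow_one] at h
  haveI hH₀n : H₀.Normal := by
    refine ⟨fun x hx g => ?_⟩
    obtain ⟨h, hh, b, hb, he⟩ := hdec _ (hL.conj_mem x (hH₀L hx) g)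
    have h1 : (h * b) ^ Nat.card H₀ = 1 := by
      rw [← he, conj_pow, hpowH x hx, mul_one, mul_inv_cancel]
    rw [(show Commute h b from hBc b hb h).mul_pow, hpowH h hh, one_mul] at h1
    have hb1 : b = 1 := by
      have h2 : b ^ Nat.gcd (Nat.card H₀) (Nat.card B) = 1 := pow_gcd_eq_one.2 ⟨h1, hpowB b hb⟩
      rwa [show Nat.gcd (Nat.card H₀) (Nat.card B) = 1 by rw [hcardH]; exact hcBR.symm, pow_one] at h2
    rwa [he, hb1, mul_one]
  -- the operators
  have hidx : H₀.index = Nat.card B * L.index := by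
    rw [← Subgroup.relIndex_mul_index hH₀L]
    congr 1
    have hc : ∀ A : Subgroup Q, A ≤ L → Nat.card A * A.relIndex L = Nat.card L := fun A hA => by
      rw [← Subgroup.relIndex_bot_left (H := A), ← Subgroup.relIndex_bot_left (H := L)]
      exact Subgroup.relIndex_mul_relIndex ⊥ A L bot_le hA
    have h1 : Nat.card H₀ * H₀.relIndex L = Nat.card L := hc H₀ hH₀L
    rw [← hc B hBL, hcardH, mul_comm (Nat.card B)] at h1
    exact Nat.eq_of_mul_eq_mul_left (Nat.pos_of_ne_zero Subgroup.index_ne_zero_of_finite) h1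
  have hcH : (Nat.card H₀).Coprime H₀.index := by
    rw [hidx, hcardH]
    refine Nat.coprime_of_dvd fun q hq h1 h2 => ?_
    rcases hq.dvd_mul.1 h2 with h | h
    · exact hBq q hq h (hRq q hq h1)
    · exact hq.one_lt.ne' (Nat.eq_one_of_dvd_coprimes hcop h (hRq q hq h1))
  obtain ⟨S, hS⟩ := Subgroup.exists_right_complement'_of_coprime (N := H₀) hcH
  have hcardS : Nat.card S = H₀.index := hS.symm.index_eq_card.symm
  haveI : Fintype H₀ := Fintype.ofFinite _
  let N₀ : Subgroup Q := Z ⊓ H₀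
  haveI : Fintype N₀ := Fintype.ofFinite _
  have hN₀H : N₀ ≤ H₀ := inf_le_right
  have hN₀c : ∀ (x : Q) (z : Q), z ∈ N₀ → x * z * x⁻¹ = z := fun x z hz => by
    rw [hcomm z hz.1 x, mul_inv_cancel_right]
  haveI hN₀n : (N₀.subgroupOf H₀).Normal := ⟨fun z hz g => by
    rw [Subgroup.mem_subgroupOf] at hz ⊢
    simpa [hN₀c _ _ hz] using hz⟩
  let μ₀ : N₀ →* ℂ := μ.comp (Subgroup.inclusion inf_le_left)
  let θ₀ : Cfsg.IrrCharacter N₀ := ⟨fun z => μ₀ z, isIrrCharacter_of_hom μ₀⟩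
  have hθinv : ∀ s ∈ S, ∀ g g' : N₀, (g' : Q) = s * g * s⁻¹ →
      (θ₀ : N₀ → ℂ) g' = (θ₀ : N₀ → ℂ) g := by
    intro s _ g g' h
    rw [hN₀c s g g.2] at h
    rw [Subtype.ext h]
  obtain ⟨χ₀, hne, hχS⟩ : ∃ χ₀ : Cfsg.IrrCharacter H₀,
      Cfsg.classInner (fun n : N₀ => (χ₀ : H₀ → ℂ) ⟨n, hN₀H n.2⟩) (θ₀ : N₀ → ℂ) ≠ 0 ∧
      (∀ s ∈ S, ∀ g g' : H₀, (g' : Q) = s * g * s⁻¹ → (χ₀ : H₀ → ℂ) g' = (χ₀ : H₀ → ℂ) g) := by
    rcases hsolv with hsA | hsB
    · refine Cfsg.Agent.S4449.result H₀ S N₀ (fun s _ g hg => hH₀n.conj_mem g hg s) hN₀H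
        (fun g _ z hz => by rw [hN₀c g z hz]; exact hz) (fun s _ z hz => by rw [hN₀c s z hz]; exact hz)
        (hcardS ▸ hcH) ?_ θ₀ hθinv
      haveI := hsA
      let f : S →* Q ⧸ L := (QuotientGroup.mk' L).comp S.subtype
      haveI : Group.IsSolvable f.ker := by
        refine Group.isSolvable_of_comm fun a b => ?_
        have hmem : ∀ c : f.ker, ((c : S) : Q) ∈ L := fun c => (QuotientGroup.eq_one_iff _).1 c.2
        obtain ⟨h, hh, b₁, hb₁, ha⟩ := hdec _ (hmem a)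
        obtain ⟨h', hh', b₂, hb₂, hb⟩ := hdec _ (hmem b)
        have he : ((a : S) : Q) * ((b : S) : Q) * ((a : S) : Q)⁻¹ * ((b : S) : Q)⁻¹ =
            h * h' * h⁻¹ * h'⁻¹ := by
          rw [ha, hb]
          calc h * b₁ * (h' * b₂) * (h * b₁)⁻¹ * (h' * b₂)⁻¹
              = h * (b₁ * h') * (b₂ * b₁⁻¹) * h⁻¹ * b₂⁻¹ * h'⁻¹ := by group
            _ = h * (h' * b₁) * (b₁⁻¹ * b₂) * h⁻¹ * b₂⁻¹ * h'⁻¹ := by
                rw [hBc b₁ hb₁ h', hBc b₁⁻¹ (B.inv_mem hb₁) b₂]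
            _ = h * h' * (b₂ * h⁻¹) * b₂⁻¹ * h'⁻¹ := by group
            _ = h * h' * (h⁻¹ * b₂) * b₂⁻¹ * h'⁻¹ := by rw [hBc b₂ hb₂ h⁻¹]
            _ = _ := by group
        have h1 : ((a : S) : Q) * ((b : S) : Q) * ((a : S) : Q)⁻¹ * ((b : S) : Q)⁻¹ = 1 := by
          refine Subgroup.disjoint_def.1 hS.disjoint ?_ (S.mul_mem (S.mul_mem (S.mul_mem (a : S).2 (b : S).2)
            (S.inv_mem (a : S).2)) (S.inv_mem (b : S).2))
          rw [he]
          exact H₀.mul_mem (H₀.mul_mem (H₀.mul_mem hh hh') (H₀.inv_mem hh)) (H₀.inv_mem hh')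
        rw [mul_inv_eq_one, mul_inv_eq_iff_eq_mul] at h1
        exact Subtype.ext (Subtype.ext h1)
      exact Group.isSolvable_of_ker_le_range f.ker.subtype f (by rw [Subgroup.range_subtype])
    · refine Cfsg.Agent.S4448.result H₀ S N₀ (fun s _ g hg => hH₀n.conj_mem g hg s) hN₀H
        (fun s _ z hz => by rw [hN₀c s z hz]; exact hz) ?_ ?_ θ₀ hθinv
      · exact (hcardS ▸ hcH).coprime_dvd_left (Subgroup.index_dvd_card _)
      · have hZn : (Z.subgroupOf L).Normal := ⟨fun z hz g => by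
          rw [Subgroup.mem_subgroupOf] at hz ⊢
          simpa [Subgroup.coe_mul, hcomm _ hz (g : Q)] using hz⟩
        haveI := hsB hZn
        refine Group.isSolvable_of_isSolvable_injective (f := QuotientGroup.map (N₀.subgroupOf H₀)
          (Z.subgroupOf L) (Subgroup.inclusion hH₀L) fun z hz => hz.1) fun a b hab => ?_
        obtain ⟨a, rfl⟩ := QuotientGroup.mk_surjective a
        obtain ⟨b, rfl⟩ := QuotientGroup.mk_surjective b
        change ((Subgroup.inclusion hH₀L a : L) : L ⧸ Z.subgroupOf L) = (Subgroup.inclusion hH₀L b : L) at hab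
        rw [QuotientGroup.eq] at hab
        exact QuotientGroup.eq.2 ⟨hab, (a⁻¹ * b).2⟩
  have hres : ∀ (z : Q) (hz : z ∈ N₀),
      (χ₀ : H₀ → ℂ) ⟨z, hN₀H hz⟩ = (χ₀ : H₀ → ℂ) 1 * μ₀ ⟨z, hz⟩ := by
    intro z hz
    let e : N₀.subgroupOf H₀ ≃* N₀ := Subgroup.subgroupOfEquivOfLe hN₀H
    haveI : Fintype (N₀.subgroupOf H₀) := Fintype.ofFinite _
    have hne' : Cfsg.classInner (fun m : N₀.subgroupOf H₀ => (χ₀ : H₀ → ℂ) m)
        (fun m : N₀.subgroupOf H₀ => μ₀ (e m)) ≠ 0 :=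
      (classInner_comp_equiv e (fun m : N₀ => (χ₀ : H₀ → ℂ) ⟨m, hN₀H m.2⟩) (fun m : N₀ => μ₀ m)).trans_ne hne
    have h := restrict_eq_smul_of_invariant χ₀.2 (isIrrCharacter_of_hom (μ₀.comp e.toMonoidHom))
      (fun g => funext fun m => congrArg μ₀ (Subtype.ext (hN₀c g _ m.2))) hne'
    have h1 := congrFun h 1
    have h2 := congrFun h (e.symm ⟨z, hz⟩)
    simp only [Pi.smul_apply, smul_eq_mul, MonoidHom.comp_apply, MulEquiv.coe_toMonoidHom,
      MulEquiv.apply_symm_apply, map_one, mul_one] at h1 h2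
    exact h2.trans (congrArg (· * μ₀ ⟨z, hz⟩) h1.symm)
  -- extend over the part split off
  obtain ⟨m, hm1, hm0⟩ := Nat.chineseRemainder (show (Nat.card H₀).Coprime (Nat.card B) by
    rw [hcardH]; exact hcBR.symm) 1 0
  have hproj : ∀ g ∈ L, g ^ m ∈ H₀ ∧ g * (g ^ m)⁻¹ ∈ B ∧
      ∀ h ∈ H₀, ∀ b ∈ B, g = h * b → g ^ m = h := by
    intro g hg
    have hu : ∀ h ∈ H₀, ∀ b ∈ B, g = h * b → g ^ m = h := by
      intro h hh b hb he
      rw [he, (show Commute h b from hBc b hb h).mul_pow,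
        pow_eq_pow_of_modEq hm1 (hpowH h hh), pow_one,
        pow_eq_pow_of_modEq hm0 (hpowB b hb), pow_zero, mul_one]
    obtain ⟨h, hh, b, hb, he⟩ := hdec g hg
    refine ⟨hu h hh b hb he ▸ hh, ?_, hu⟩
    rw [hu h hh b hb he, he, hBc b hb h, mul_inv_cancel_right]
    exact hb
  let pr : L →* H₀ := MonoidHom.mk' (fun g => ⟨(g : Q) ^ m, (hproj g g.2).1⟩) fun a b => Subtype.ext (by
    obtain ⟨h, hh, b₁, hb₁, ha⟩ := hdec _ a.2
    obtain ⟨h', hh', b₂, hb₂, hb⟩ := hdec _ b.2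
    show ((a * b : L) : Q) ^ m = (a : Q) ^ m * (b : Q) ^ m
    rw [(hproj _ a.2).2.2 h hh b₁ hb₁ ha, (hproj _ b.2).2.2 h' hh' b₂ hb₂ hb]
    refine (hproj _ (a * b).2).2.2 _ (H₀.mul_mem hh hh') (b₁ * b₂) (B.mul_mem hb₁ hb₂) ?_
    rw [Subgroup.coe_mul, ha, hb, mul_assoc, ← mul_assoc b₁, ← hBc b₁ hb₁ h']
    simp only [mul_assoc])
  let pB : L →* Z := MonoidHom.mk' (fun g => ⟨(g : Q) * ((g : Q) ^ m)⁻¹, hBZ (hproj g g.2).2.1⟩)
    fun a b => Subtype.ext (by
      have h1 : ((a * b : L) : Q) ^ m = (a : Q) ^ m * (b : Q) ^ m := congrArg Subtype.val (map_mul pr a b)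
      show ((a * b : L) : Q) * (((a * b : L) : Q) ^ m)⁻¹ =
        (a : Q) * ((a : Q) ^ m)⁻¹ * ((b : Q) * ((b : Q) ^ m)⁻¹)
      rw [h1, Subgroup.coe_mul, mul_inv_rev, mul_assoc (a : Q) ((a : Q) ^ m)⁻¹ ((b : Q) * _),
        hBc _ (hproj _ b.2).2.1 ((a : Q) ^ m)⁻¹]
      simp only [mul_assoc])
  have hpr : Function.Surjective pr := fun h => ⟨⟨h, hH₀L h.2⟩, Subtype.ext
    ((hproj _ (hH₀L h.2)).2.2 h h.2 1 B.one_mem (mul_one _).symm)⟩
  refine ⟨fun g => μ (pB g) * (χ₀ : H₀ → ℂ) (pr g),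
    isIrrCharacter_linear_mul (isIrrCharacter_comp χ₀.2 pr hpr) (μ.comp pB), ?_, ?_⟩
  · intro x g g' h
    obtain ⟨h₁, hh₁, s, hs, hx⟩ : ∃ h ∈ H₀, ∃ s ∈ S, x = h * s := by
      obtain ⟨⟨⟨a, ha⟩, ⟨s, hs'⟩⟩, has⟩ := hS.2 x
      exact ⟨a, ha, s, hs', has.symm⟩
    have hp : ((pr g' : H₀) : Q) = x * (pr g : Q) * x⁻¹ := by
      show (g' : Q) ^ m = x * (g : Q) ^ m * x⁻¹
      rw [h, conj_pow]
    have h1 : pB g' = pB g := Subtype.ext (by
      show (g' : Q) * ((g' : Q) ^ m)⁻¹ = (g : Q) * ((g : Q) ^ m)⁻¹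
      rw [h, conj_pow]
      calc x * (g : Q) * x⁻¹ * (x * (g : Q) ^ m * x⁻¹)⁻¹ = x * ((g : Q) * ((g : Q) ^ m)⁻¹) * x⁻¹ := by group
        _ = _ := by rw [hBc _ (hproj _ g.2).2.1 x, mul_inv_cancel_right])
    let t : H₀ := ⟨s * (pr g : Q) * s⁻¹, hH₀n.conj_mem _ (pr g).2 s⟩
    have h2 : pr g' = (⟨h₁, hh₁⟩ : H₀) * t * (⟨h₁, hh₁⟩ : H₀)⁻¹ := Subtype.ext (by
      rw [hp, hx]
      show _ = h₁ * (s * (pr g : Q) * s⁻¹) * h₁⁻¹
      group)
    show μ (pB g') * _ = μ (pB g) * _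
    rw [h1, h2, CharBasics.isClassFunction (isCharacter_of_irr χ₀.2) t, hχS s hs (pr g) t rfl]
  · intro z
    show μ (pB ⟨z, hZL z.2⟩) * _ = (μ (pB 1) * (χ₀ : H₀ → ℂ) (pr 1)) * μ z
    have hzm : (z : Q) ^ m ∈ N₀ := ⟨Z.pow_mem z.2 m, (hproj _ (hZL z.2)).1⟩
    have hp : pr ⟨z, hZL z.2⟩ = ⟨(z : Q) ^ m, hN₀H hzm⟩ := rfl
    rw [hp, hres _ hzm, map_one, map_one, map_one, one_mul, mul_left_comm, mul_comm (μ _), ]
    congr 1
    show μ _ * μ _ = μ z
    rw [← map_mul]
    congr 1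
    refine Subtype.ext ?_
    show (z : Q) ^ m * ((z : Q) * ((z : Q) ^ m)⁻¹) = z
    rw [hcomm z z.2 ((z : Q) ^ m)⁻¹ |>.symm, mul_inv_cancel_left]

set_option maxHeartbeats 1000000 in
/-- The linear case. -/
theorem exists_invariant_linear {H : Type u} [Group H] [Fintype H] (L Z : Subgroup H) [hL : L.Normal]
    [hZn : Z.Normal] [Fintype L] (hZL : Z ≤ L) (hcop : L.index.Coprime (Z.relIndex L))
    (hsolv : Group.IsSolvable (H ⧸ L) ∨ Group.IsSolvable (L ⧸ Z.subgroupOf L))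
    (μ : Z →* ℂ) (hinv : ∀ (x : H) (z z' : Z), (z' : H) = x * z * x⁻¹ → μ z' = μ z) :
    ∃ β : L → ℂ, Cfsg.IsIrrCharacter L β ∧
      (∀ (x : H) (g g' : L), (g' : H) = x * g * x⁻¹ → β g' = β g) ∧
      ∀ z : Z, β ⟨z, hZL z.2⟩ = β 1 * μ z := by
  classical
  let K : Subgroup H := μ.ker.map Z.subtype
  have hKZ : K ≤ Z := Subgroup.map_subtype_le _
  haveI : K.Normal := ⟨fun k hk x => by
    obtain ⟨z, hz, rfl⟩ := Subgroup.mem_map.1 hk
    refine Subgroup.mem_map.2 ⟨⟨x * z * x⁻¹, hZn.conj_mem z z.2 x⟩, ?_, rfl⟩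
    exact (hinv x z _ rfl).trans hz⟩
  let π : H →* H ⧸ K := QuotientGroup.mk' K
  have hπ : Function.Surjective π := QuotientGroup.mk'_surjective K
  haveI : (L.map π).Normal := Subgroup.Normal.map hL π hπ
  haveI : Fintype (H ⧸ K) := Fintype.ofFinite _
  haveI : Fintype (L.map π) := Fintype.ofFinite _
  let f : Z →* Z.map π := π.subgroupMap Z
  have hf : Function.Surjective f := π.subgroupMap_surjective Z
  have hfker : f.ker ≤ μ.ker := by
    intro z hz
    have h1 : ((z : H) : H ⧸ K) = 1 := congrArg Subtype.val (MonoidHom.mem_ker.1 hz)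
    obtain ⟨w, hw, he⟩ := Subgroup.mem_map.1 ((QuotientGroup.eq_one_iff _).1 h1)
    rwa [Subtype.ext he] at hw
  have hfker' : f.ker ≤ μ.toHomUnits.ker := fun z hz => Units.ext (hfker hz)
  let μq : Z.map π →* ℂ := (Units.coeHom ℂ).comp (f.liftOfSurjective hf ⟨μ.toHomUnits, hfker'⟩)
  have hμq : ∀ z, μq (f z) = μ z := fun z =>
    congrArg Units.val (MonoidHom.liftOfRightInverse_comp_apply f _ (Function.rightInverse_surjInv hf)
      ⟨μ.toHomUnits, hfker'⟩ z)
  have hZLq : Z.map π ≤ L.map π := Subgroup.map_mono hZL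
  have hker : π.ker = K := QuotientGroup.ker_mk' K
  obtain ⟨β, hβ, hβinv, hβz⟩ := exists_invariant_central (L.map π) (Z.map π) hZLq (by
      rintro _ ⟨z, hz, rfl⟩
      rw [Subgroup.mem_center_iff]
      intro y
      obtain ⟨x, rfl⟩ := hπ y
      rw [← map_mul, ← map_mul]
      refine (QuotientGroup.eq.2 ?_)
      have hk : x * z * x⁻¹ * z⁻¹ ∈ K := by
        refine Subgroup.mem_map.2 ⟨⟨x * z * x⁻¹, hZn.conj_mem z hz x⟩ * ⟨z, hz⟩⁻¹, ?_, rfl⟩
        rw [MonoidHom.mem_ker, map_mul, hinv x ⟨z, hz⟩ _ rfl, ← map_mul, mul_inv_cancel, map_one]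
      have h3 := K.inv_mem hk
      have h4 := (inferInstance : K.Normal).conj_mem _ h3 (x * z)⁻¹
      simpa [mul_assoc] using h4)
    (by
      rw [Subgroup.index_map_eq (f := π) L hπ (by rw [hker]; exact hKZ.trans hZL), Subgroup.relIndex_map_map,
        hker, sup_eq_left.2 hKZ, sup_eq_left.2 (hKZ.trans hZL)]
      exact hcop)
    (by
      rcases hsolv with h | h
      · haveI := h
        exact Or.inl (Group.isSolvable_of_surjective (f := QuotientGroup.map L (L.map π) π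
          (Subgroup.le_comap_map π L)) (QuotientGroup.map_surjective_of_surjective _ _ _
            ((QuotientGroup.mk_surjective).comp hπ) _))
      · haveI := h
        refine Or.inr fun q => ?_
        haveI := q
        refine Group.isSolvable_of_surjective (f := QuotientGroup.map (Z.subgroupOf L)
          ((Z.map π).subgroupOf (L.map π)) (π.subgroupMap L) fun z hz => Subgroup.mem_map_of_mem π hz) ?_
        exact QuotientGroup.map_surjective_of_surjective _ _ _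
          ((QuotientGroup.mk_surjective).comp (π.subgroupMap_surjective L)) _)
    μq
  refine ⟨fun g => β (π.subgroupMap L g), isIrrCharacter_comp hβ _ (π.subgroupMap_surjective L),
    fun x g g' h => hβinv (π x) _ _ ?_, fun z => ?_⟩
  · show π (g' : H) = π x * π (g : H) * (π x)⁻¹
    rw [h, map_mul, map_mul, map_inv]
  · have h := hβz (f z)
    rw [hμq] at h
    show β (π.subgroupMap L ⟨z, hZL z.2⟩) = β (π.subgroupMap L 1) * μ z
    rw [map_one]
    exact h

end CfsgLib.Clifford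

namespace CfsgLib.Clifford

open CfsgLib.CharBasics

universe v

set_option maxHeartbeats 1000000 in
/-- The pairs of determinant one reduce an invariant irreducible character to a linear one. -/
theorem exists_invariant_above {Γ : Type v} [Group Γ] [Fintype Γ] (G N : Subgroup Γ) [hG : G.Normal]
    [hN : N.Normal] [Fintype G] [Fintype N] (hNG : N ≤ G) (hcop : G.index.Coprime (N.relIndex G))
    (hsolv : Group.IsSolvable (Γ ⧸ G) ∨ Group.IsSolvable (G ⧸ N.subgroupOf G))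
    {θ : N → ℂ} (hθ : Cfsg.IsIrrCharacter N θ) (hinv : ∀ x : Γ, conjFun x θ = θ) :
    ∃ χ : G → ℂ, Cfsg.IsIrrCharacter G χ ∧
      Cfsg.classInner (fun n : N => χ ⟨n, hNG n.2⟩) θ ≠ 0 ∧
      ∀ (x : Γ) (g : G), χ ⟨x * g * x⁻¹, hG.conj_mem g g.2 x⟩ = χ g := by
  classical
  obtain ⟨d, σ, hσ, rfl⟩ := hθ
  have hd : 0 < Module.finrank ℂ (Fin d → ℂ) := finrank_pos_of_irreducible hσ
  rw [Module.finrank_fin_fun] at hd
  haveI : Nonempty (Fin d) := ⟨⟨0, hd⟩⟩
  have hinv' : ∀ (g : Γ) (n : N), σ.character (MulAut.conjNormal g n) = σ.character n := fun g n => by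
    rw [show MulAut.conjNormal g n = ⟨g * n * g⁻¹, hN.conj_mem n n.2 g⟩ from
      Subtype.ext (MulAut.conjNormal_apply g n)]
    exact congrFun (hinv g) n
  haveI : Finite (inertiaPairs σ) := finite_inertiaPairs hσ
  haveI : Fintype (inertiaPairs σ) := Fintype.ofFinite _
  let π : inertiaPairs σ →* Γ := (MonoidHom.fst Γ _).comp (inertiaPairs σ).subtype
  have hπ : Function.Surjective π := fun g => by
    obtain ⟨T, hT⟩ := exists_inertiaPair hσ hinv' g
    exact ⟨⟨(g, T), hT⟩, rfl⟩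
  let L : Subgroup (inertiaPairs σ) := G.comap π
  let Z : Subgroup (inertiaPairs σ) := N.comap π
  have hZL : Z ≤ L := Subgroup.comap_mono hNG
  haveI : Fintype L := Fintype.ofFinite _
  haveI : Fintype Z := Fintype.ofFinite _
  let τR : Representation ℂ (inertiaPairs σ) (Fin d → ℂ) :=
    { toFun := fun p => (p.1.2 : (Fin d → ℂ) →ₗ[ℂ] (Fin d → ℂ))
      map_one' := rfl
      map_mul' := fun _ _ => rfl }
  let τ : inertiaPairs σ → ℂ := τR.character
  have hτ : Cfsg.IsCharacter (inertiaPairs σ) τ := ⟨d, τR, rfl⟩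
  let fN : Z →* N := π.subgroupComap N
  have hfN : Function.Surjective fN := fun n => by
    obtain ⟨p, hp⟩ := hπ n
    exact ⟨⟨p, show π p ∈ N from hp ▸ n.2⟩, Subtype.ext hp⟩
  have hconjp : ∀ (p : inertiaPairs σ) (n : N) (w : Fin d → ℂ),
      τR p (σ n w) = σ (MulAut.conjNormal (π p) n) (τR p w) := fun p n w => p.2.1 n w
  -- the scalar
  have hscal : ∀ z : Z, ∃ c : ℂ, σ (fN z) = c • τR z := fun z => by
    let S : (Fin d → ℂ) ≃ₗ[ℂ] (Fin d → ℂ) :=
      LinearEquiv.ofLinear (σ (fN z)) (σ (fN z)⁻¹)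
        (by rw [← Module.End.mul_eq_comp, ← map_mul, mul_inv_cancel, map_one]; rfl)
        (by rw [← Module.End.mul_eq_comp, ← map_mul, inv_mul_cancel, map_one]; rfl)
    obtain ⟨c, hc⟩ := inertiaPairs_scalar hσ (T' := S) ((z : inertiaPairs σ)).2.1 (fun n w => by
      change σ (fN z) (σ n w) = σ _ (σ (fN z) w)
      rw [← Module.End.mul_apply, ← map_mul, ← Module.End.mul_apply, ← map_mul]
      congr 2
      refine Subtype.ext ?_
      rw [Subgroup.coe_mul, Subgroup.coe_mul, MulAut.conjNormal_apply]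
      show (z : inertiaPairs σ).1.1 * (n : Γ) =
        (z : inertiaPairs σ).1.1 * (n : Γ) * (z : inertiaPairs σ).1.1⁻¹ * (z : inertiaPairs σ).1.1
      rw [inv_mul_cancel_right])
    exact ⟨c, LinearMap.ext hc⟩
  choose μf hμf using hscal
  have hτne : ∀ p : inertiaPairs σ, τR p ≠ 0 := fun p h0 => by
    haveI : Nontrivial (Fin d → ℂ) := inferInstance
    obtain ⟨w, hw⟩ := exists_ne (0 : Fin d → ℂ)
    exact hw (p.1.2.injective (by
      rw [map_zero]
      exact LinearMap.congr_fun h0 w))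
  have hμu : ∀ (z : Z) (c : ℂ), σ (fN z) = c • τR z → μf z = c := fun z c h =>
    smul_left_injective ℂ (hτne z) ((hμf z).symm.trans h)
  let μ : Z →* ℂ :=
    { toFun := μf
      map_one' := hμu 1 1 (by rw [map_one, map_one, one_smul, Subgroup.coe_one, map_one])
      map_mul' := fun a b => hμu _ _ (by
        rw [map_mul, map_mul, hμf, hμf, Subgroup.coe_mul, map_mul, smul_mul_smul_comm]) }
  have hμ : ∀ z : Z, σ (fN z) = μ z • τR z := hμf
  have hμinv : ∀ (x : inertiaPairs σ) (z z' : Z), (z' : inertiaPairs σ) = x * z * x⁻¹ → μ z' = μ z := by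
    intro x z z' h
    refine hμu _ _ ?_
    have h1 : fN z' = MulAut.conjNormal (π x) (fN z) := Subtype.ext (by
      rw [MulAut.conjNormal_apply]
      show π (z' : inertiaPairs σ) = π x * π (z : inertiaPairs σ) * (π x)⁻¹
      rw [h, map_mul, map_mul, map_inv])
    have h2 : τR x * σ (fN z) = σ (fN z') * τR x := by
      rw [h1]
      exact LinearMap.ext fun w => hconjp x (fN z) w
    calc σ (fN z') = σ (fN z') * τR x * τR x⁻¹ := by rw [mul_assoc, ← map_mul, mul_inv_cancel, map_one, mul_one]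
      _ = τR x * σ (fN z) * τR x⁻¹ := by rw [h2]
      _ = μ z • τR (z' : inertiaPairs σ) := by
          rw [hμ, mul_smul_comm, smul_mul_assoc, h, map_mul, map_mul]
  obtain ⟨β, hβ, hβinv, hβZ⟩ := exists_invariant_linear L Z hZL (by
      show (G.comap π).index.Coprime ((N.comap π).relIndex (G.comap π))
      rw [Subgroup.index_comap_of_surjective _ hπ, Subgroup.relIndex_comap,
        Subgroup.map_comap_eq_self_of_surjective hπ]
      exact hcop)
    (by
      rcases hsolv with h | h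
      · haveI := h
        refine Or.inl (Group.isSolvable_of_isSolvable_injective (f := QuotientGroup.map L G π le_rfl)
          fun a b hab => ?_)
        obtain ⟨a, rfl⟩ := QuotientGroup.mk_surjective a
        obtain ⟨b, rfl⟩ := QuotientGroup.mk_surjective b
        change (π a : Γ ⧸ G) = (π b : Γ ⧸ G) at hab
        rw [QuotientGroup.eq, ← map_inv, ← map_mul] at hab
        exact QuotientGroup.eq.2 hab
      · haveI := h
        refine Or.inr (Group.isSolvable_of_isSolvable_injective (f := QuotientGroup.map (Z.subgroupOf L)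
          (N.subgroupOf G) (π.subgroupComap G) fun z hz => hz) fun a b hab => ?_)
        obtain ⟨a, rfl⟩ := QuotientGroup.mk_surjective a
        obtain ⟨b, rfl⟩ := QuotientGroup.mk_surjective b
        change (π.subgroupComap G a : G ⧸ N.subgroupOf G) = (π.subgroupComap G b : G) at hab
        rw [QuotientGroup.eq, ← map_inv, ← map_mul] at hab
        exact QuotientGroup.eq.2 hab)
    μ hμinv
  -- the product with the character of the pairs
  haveI : (Z.subgroupOf L).Normal := inferInstance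
  haveI : Fintype (Z.subgroupOf L) := Fintype.ofFinite _
  let e : Z.subgroupOf L ≃* Z := Subgroup.subgroupOfEquivOfLe hZL
  let φ : Z.subgroupOf L →* ℂ := μ.comp e.toMonoidHom
  have hφinv : ∀ g : L, conjFun g (fun z => φ z) = fun z => φ z := fun g => funext fun z =>
    hμinv g (e z) (e ⟨g * z * g⁻¹, Subgroup.Normal.conj_mem inferInstance _ z.2 g⟩) rfl
  have hθτ : ∀ z : Z, σ.character (fN z) = μ z * τ z := fun z => by
    show LinearMap.trace ℂ _ (σ (fN z)) = μ z * LinearMap.trace ℂ _ (τR z)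
    rw [hμ, map_smul, smul_eq_mul]
  have hprod : Cfsg.IsIrrCharacter (Z.subgroupOf L)
      ((fun z => φ z) * fun z : Z.subgroupOf L => τ ((z : L) : inertiaPairs σ)) := by
    have h := isIrrCharacter_comp (χ := σ.character) ⟨d, σ, hσ, rfl⟩ (fN.comp e.toMonoidHom)
      (hfN.comp e.surjective)
    have h' : (fun z => φ z) * (fun z : Z.subgroupOf L => τ ((z : L) : inertiaPairs σ)) =
        fun z : Z.subgroupOf L => σ.character ((fN.comp e.toMonoidHom) z) :=
      funext fun z => (hθτ (e z)).symm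
    rw [h']
    exact h
  have hover : Cfsg.classInner (Cfsg.indFun (Z.subgroupOf L) fun z => φ z) β ≠ 0 := by
    rw [classInner_indFun _ _ (CharBasics.isClassFunction (isCharacter_of_irr hβ)), classInner_comm, Ne,
      map_eq_zero]
    rw [show (fun z : Z.subgroupOf L => β z) = β 1 • fun z : Z.subgroupOf L => φ z from
      funext fun z => hβZ (e z), classInner_smul_left, classInner_self (isIrrCharacter_of_hom φ), mul_one]
    exact apply_one_ne_zero hβ
  have hψ : Cfsg.IsIrrCharacter L (β * fun g : L => τ g) :=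
    ((gallagher_bijOn (isIrrCharacter_of_hom φ) hφinv hprod (CharBasics.isCharacter_restrict hτ L)
      (fun _ => rfl)).mapsTo ⟨hβ, hover⟩).1
  let fG : L →* G := π.subgroupComap G
  have hfG : Function.Surjective fG := fun n => by
    obtain ⟨p, hp⟩ := hπ n
    exact ⟨⟨p, show π p ∈ G from hp ▸ n.2⟩, Subtype.ext hp⟩
  have hψZ : ∀ z : Z, β ⟨z, hZL z.2⟩ * τ z = β 1 * σ.character (fN z) := fun z => by
    rw [hβZ, hθτ, mul_assoc]
  have hker : ∀ g ∈ fG.ker, (β * fun g : L => τ g) g = (β * fun g : L => τ g) 1 := by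
    intro g hg
    have h1 : π (g : inertiaPairs σ) = 1 := congrArg Subtype.val (MonoidHom.mem_ker.1 hg)
    have hgZ : (g : inertiaPairs σ) ∈ Z := show π _ ∈ N from h1 ▸ N.one_mem
    have h2 := hψZ ⟨g, hgZ⟩
    have h3 := hψZ 1
    rw [show fN ⟨g, hgZ⟩ = 1 from Subtype.ext h1] at h2
    rw [map_one fN] at h3
    exact h2.trans h3.symm
  obtain ⟨χq, hχq⟩ := exists_quotient_irr ⟨_, hψ⟩ fG.ker hker
  let eq' := QuotientGroup.quotientKerEquivOfSurjective fG hfG
  have hχg : ∀ g : L, (χq : L ⧸ fG.ker → ℂ) (eq'.symm (fG g)) = β g * τ g := fun g => by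
    rw [show eq'.symm (fG g) = (g : L ⧸ fG.ker) from eq'.symm_apply_eq.2 rfl]
    exact hχq g
  refine ⟨fun g => (χq : L ⧸ fG.ker → ℂ) (eq'.symm g),
    isIrrCharacter_comp χq.2 eq'.symm.toMonoidHom eq'.symm.surjective, ?_, fun x g => ?_⟩
  · have h1 : (fun n : N => (χq : L ⧸ fG.ker → ℂ) (eq'.symm ⟨n, hNG n.2⟩)) = β 1 • σ.character := funext fun n => by
      obtain ⟨z, rfl⟩ := hfN n
      exact (hχg ⟨z, hZL z.2⟩).trans (hψZ z)
    rw [h1, classInner_smul_left, classInner_self ⟨d, σ, hσ, rfl⟩, mul_one]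
    exact apply_one_ne_zero hβ
  · obtain ⟨x, rfl⟩ := hπ x
    obtain ⟨g, rfl⟩ := hfG g
    have hm : x * (g : inertiaPairs σ) * x⁻¹ ∈ L := (inferInstance : L.Normal).conj_mem _ g.2 x
    have h1 := hχg ⟨_, hm⟩
    rw [hβinv x g ⟨_, hm⟩ rfl, CharBasics.isClassFunction hτ (g : inertiaPairs σ) x, ← hχg g] at h1
    refine Eq.trans ?_ h1
    congr 2

end CfsgLib.Clifford
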