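import Mathlib
import Cfsg.Agent.Clifford.EigenProd
import Cfsg.Agent.Clifford.ExtCriteria
import Cfsg.Agent.Clifford.Correspondence
import Cfsg.Agent.Clifford.CosetAvg
import Cfsg.Agent.BrauerInd.Galois
import Cfsg.Agent.CharBasics.Extra

/-!
# The character correspondence for a cyclic group of operators of coprime order
-/

set_option autoImplicit false
set_option linter.style.haveILetI false
set_option linter.unusedSectionVars false

namespace CfsgLib.CyclicCorr

open Cfsg CfsgLib.CharBasics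
open scoped ComplexConjugate

universe u

variable {Γ : Type u} [Group Γ] [Fintype Γ] (G : Subgroup Γ) [hGn : G.Normal] [Fintype G] (s : Γ)

/-- The hypotheses on `G` and the generator `s`. -/
structure Setup : Prop where
  gen : G ⊔ Subgroup.zpowers s = ⊤
  cop : (Nat.card G).Coprime (orderOf s)

variable {G s} (h : Setup G s)
include h

theorem exists_decomp_elt (γ : Γ) : ∃ g ∈ G, ∃ i : ℤ, γ = g * s ^ i := by
  have : γ ∈ G ⊔ Subgroup.zpowers s := h.gen ▸ Subgroup.mem_top γ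
  obtain ⟨g, hg, y, ⟨i, rfl⟩, rfl⟩ := Subgroup.mem_sup_of_normal_left.1 this
  exact ⟨g, hg, i, rfl⟩

theorem quot_comm : IsMulCommutative (Γ ⧸ G) := by
  refine ⟨⟨fun a b => ?_⟩⟩
  obtain ⟨x, rfl⟩ := QuotientGroup.mk_surjective a
  obtain ⟨y, rfl⟩ := QuotientGroup.mk_surjective b
  obtain ⟨g, hg, i, rfl⟩ := exists_decomp_elt h x
  obtain ⟨g', hg', j, rfl⟩ := exists_decomp_elt h y
  simp only [QuotientGroup.mk_mul, (QuotientGroup.eq_one_iff g).2 hg, (QuotientGroup.eq_one_iff g').2 hg', one_mul,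
    QuotientGroup.mk_zpow]
  exact (Commute.refl _).zpow_zpow i j

theorem disjoint : G ⊓ Subgroup.zpowers s = ⊥ := by
  refine Subgroup.inf_eq_bot_of_coprime ?_
  rw [Nat.card_zpowers]
  exact h.cop

theorem index_eq : G.index = orderOf s := by
  have hc : Subgroup.IsComplement' G (Subgroup.zpowers s) :=
    Subgroup.isComplement'_of_disjoint_and_mul_eq_univ (disjoint_iff.2 (disjoint h))
      (Set.eq_univ_of_forall fun γ => by
        obtain ⟨g, hg, i, rfl⟩ := exists_decomp_elt h γ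
        exact Set.mul_mem_mul hg ⟨i, rfl⟩)
  rw [hc.symm.index_eq_card, Nat.card_zpowers]

theorem card_eq : Nat.card Γ = orderOf s * Nat.card G := by
  rw [← index_eq h, mul_comm, Subgroup.card_mul_index]

theorem coprime_degree (χ : IrrCharacter G) : (orderOf s).Coprime (charDegree (χ : G → ℂ)) :=
  h.cop.symm.coprime_dvd_right (degree_dvd χ)

theorem hom_trivial {f : Γ →* ℂ} (hf : ∀ g : G, f g = 1) (hs : f s = 1) (γ : Γ) : f γ = 1 := by
  obtain ⟨g, hg, i, rfl⟩ := exists_decomp_elt h γ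
  rw [map_mul, hf ⟨g, hg⟩, one_mul]
  obtain ⟨j, hj⟩ : ∃ j : ℕ, s ^ i = s ^ j := by
    obtain ⟨j, hj⟩ := (isOfFinOrder_of_finite s).mem_powers_iff_mem_zpowers.2 ⟨i, rfl⟩
    exact ⟨j, hj.symm⟩
  rw [hj, map_pow, hs, one_pow]

/-- A linear character that fixes a character with irreducible restriction is trivial. -/
theorem eq_one_of_mul_fixed {χ : IrrCharacter G} {ψ : IrrCharacter Γ} (hres : ∀ g : G, (ψ : Γ → ℂ) g = (χ : G → ℂ) g)
    {f : Γ →* ℂ} (hf : ∀ g : G, f g = 1) (hfix : ∀ γ, f γ * (ψ : Γ → ℂ) γ = (ψ : Γ → ℂ) γ) (γ : Γ) : f γ = 1 := by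
  have hd : (ψ : Γ → ℂ) 1 = (charDegree (χ : G → ℂ) : ℂ) := by
    rw [← Subgroup.coe_one G, hres, apply_one (isCharacter_of_irr χ.2)]
  have e := Clifford.detChar_linear_mul ψ.2 f hd
  rw [show (fun g => f g * (ψ : Γ → ℂ) g) = (ψ : Γ → ℂ) from funext hfix] at e
  obtain ⟨d, hdet⟩ := Clifford.exists_detHom ψ.2
  refine hom_trivial h hf ?_ γ
  have h1 := congrFun e s
  rw [hdet] at h1
  have hne : d s ≠ 0 := fun h0 => by
    have := map_mul d s s⁻¹
    rw [mul_inv_cancel, map_one, h0, zero_mul] at this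
    exact one_ne_zero this
  refine Clifford.eq_one_of_pow_coprime (coprime_degree h χ) ?_ ((mul_eq_right₀ hne).1 h1.symm)
  rw [← map_pow, pow_orderOf_eq_one, map_one]

/-- Extensions of irreducible characters of `G` on the coset of `s`: orthogonality. -/
theorem coset_orth (χ χ' : IrrCharacter G) (ψ ψ' : IrrCharacter Γ)
    (hres : ∀ g : G, (ψ : Γ → ℂ) g = (χ : G → ℂ) g) (hres' : ∀ g : G, (ψ' : Γ → ℂ) g = (χ' : G → ℂ) g) :
    (χ ≠ χ' → ∑ g : G, (ψ : Γ → ℂ) ((g : Γ) * s) * conj ((ψ' : Γ → ℂ) ((g : Γ) * s)) = 0) ∧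
      (ψ = ψ' → ∑ g : G, (ψ : Γ → ℂ) ((g : Γ) * s) * conj ((ψ' : Γ → ℂ) ((g : Γ) * s)) = (Nat.card G : ℂ)) := by
  classical
  haveI : Fintype (IrrCharacter Γ) := Fintype.ofFinite _
  haveI := quot_comm h
  let F : Γ → ℂ := fun γ => if γ * s⁻¹ ∈ G then 1 else 0
  have hF : IsClassFunction Γ F := fun γ x => by
    have e : x * γ * x⁻¹ * s⁻¹ ∈ G ↔ γ * s⁻¹ ∈ G := by
      rw [← QuotientGroup.eq_one_iff, ← QuotientGroup.eq_one_iff]
      have hc : ∀ a b : Γ ⧸ G, a * b * a⁻¹ = b := fun a b => by rw [mul_comm' a b, mul_inv_cancel_right]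
      simp only [QuotientGroup.mk_mul, QuotientGroup.mk_inv, hc]
    simp only [F, e]
  have hsumF : ∀ u : Γ → ℂ, ∑ γ : Γ, F γ * u γ = ∑ g : G, u ((g : Γ) * s) := fun u => by
    simp only [F, ite_mul, one_mul, zero_mul]
    rw [← Finset.sum_filter]
    refine Finset.sum_bij' (fun γ hγ => ⟨γ * s⁻¹, (Finset.mem_filter.1 hγ).2⟩) (fun g _ => (g : Γ) * s)
      (fun _ _ => Finset.mem_univ _) (fun g _ => by simp) (fun γ _ => by simp) (fun g _ => Subtype.ext (by simp))
      (fun γ _ => by simp)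
  have hterm : ∀ β : IrrCharacter Γ, classInner F (β : Γ → ℂ) ≠ 0 →
      ∃ f : Γ →* ℂ, (β : Γ → ℂ) = (fun γ => f γ) ∧ ∀ g : G, f g = 1 := by
    intro β hβ
    have hker : ∀ n ∈ G, (β : Γ → ℂ) n = (β : Γ → ℂ) 1 := by
      by_contra hk
      refine hβ ?_
      rw [classInner_eq, hsumF fun γ => conj ((β : Γ → ℂ) γ), ← map_sum, Clifford.coset_sum_eq_zero β.2 hk s,
        map_zero, mul_zero]
    obtain ⟨b, hb⟩ := exists_quotient_irr β G hker
    have h1 : (β : Γ → ℂ) 1 = 1 := by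
      rw [← hb 1, QuotientGroup.mk_one, apply_one (isCharacter_of_irr b.2), charDegree_comm b.2, Nat.cast_one]
    obtain ⟨f, hf⟩ := Clifford.exists_hom_of_linear (isCharacter_of_irr β.2) h1
    refine ⟨f, hf, fun g => ?_⟩
    have := hker g g.2
    rw [h1, hf] at this
    exact this
  have hexp : ∑ g : G, (ψ : Γ → ℂ) ((g : Γ) * s) * conj ((ψ' : Γ → ℂ) ((g : Γ) * s)) =
      ∑ β : IrrCharacter Γ, classInner F (β : Γ → ℂ) *
        ((Nat.card Γ : ℂ) * classInner (fun γ => (β : Γ → ℂ) γ * (ψ : Γ → ℂ) γ) (ψ' : Γ → ℂ)) := by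
    rw [← hsumF fun γ => (ψ : Γ → ℂ) γ * conj ((ψ' : Γ → ℂ) γ)]
    conv_lhs => enter [2, γ]; rw [congrFun (classFun_expand hF) γ]
    simp only [Finset.sum_apply, Pi.smul_apply, smul_eq_mul, Finset.sum_mul]
    rw [Finset.sum_comm]
    refine Finset.sum_congr rfl fun β _ => ?_
    rw [classInner_eq (fun γ => (β : Γ → ℂ) γ * (ψ : Γ → ℂ) γ),
      mul_inv_cancel_left₀ (Nat.cast_ne_zero.2 Nat.card_pos.ne'), Finset.mul_sum]
    exact Finset.sum_congr rfl fun γ _ => by ring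
  refine ⟨fun hne => ?_, fun heq => ?_⟩
  · rw [hexp]
    refine Finset.sum_eq_zero fun β _ => ?_
    by_cases hβ : classInner F (β : Γ → ℂ) = 0
    · rw [hβ, zero_mul]
    obtain ⟨f, hf, hfG⟩ := hterm β hβ
    rw [classInner_ne (χ := fun γ => (β : Γ → ℂ) γ * (ψ : Γ → ℂ) γ), mul_zero, mul_zero]
    · rw [hf]; exact Clifford.isIrrCharacter_linear_mul ψ.2 f
    · exact ψ'.2
    · intro e
      refine hne (Subtype.ext (funext fun g => ?_))
      have := congrFun e g
      rw [hf] at this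
      simpa [hfG, hres, hres'] using this
  · subst heq
    rw [hexp, Finset.sum_eq_single (oneChar : IrrCharacter Γ)]
    · have e1 : classInner F ((oneChar : IrrCharacter Γ) : Γ → ℂ) = (Nat.card Γ : ℂ)⁻¹ * Nat.card G := by
        rw [classInner_eq, hsumF fun γ => conj (((oneChar : IrrCharacter Γ) : Γ → ℂ) γ)]
        simp [oneChar_apply, Nat.card_eq_fintype_card]
      rw [e1, show (fun γ => ((oneChar : IrrCharacter Γ) : Γ → ℂ) γ * (ψ : Γ → ℂ) γ) = (ψ : Γ → ℂ) from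
        funext fun γ => by rw [oneChar_apply, one_mul], classInner_self ψ.2, mul_one]
      field_simp
    · intro β _ hβ1
      by_cases hβ : classInner F (β : Γ → ℂ) = 0
      · rw [hβ, zero_mul]
      obtain ⟨f, hf, hfG⟩ := hterm β hβ
      rw [classInner_ne (χ := fun γ => (β : Γ → ℂ) γ * (ψ : Γ → ℂ) γ), mul_zero, mul_zero]
      · rw [hf]; exact Clifford.isIrrCharacter_linear_mul ψ.2 f
      · exact ψ.2
      · intro e
        refine hβ1 (Subtype.ext (funext fun γ => ?_))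
        rw [oneChar_apply, hf]
        exact eq_one_of_mul_fixed h hres hfG (fun γ' => by have := congrFun e γ'; rwa [hf] at this) γ
    · simp

section Sum

variable {C : Subgroup Γ} [Fintype C] (hC : ∀ c, c ∈ C ↔ c ∈ G ∧ c * s = s * c)
include hC

theorem conj_fiber {x x' : G} {c c' : C} (he : (x : Γ) * ((c : Γ) * s) * (x : Γ)⁻¹ = (x' : Γ) * ((c' : Γ) * s) * (x' : Γ)⁻¹) :
    (x' : Γ)⁻¹ * x ∈ C ∧ (c' : Γ) = ((x' : Γ)⁻¹ * x) * c * ((x' : Γ)⁻¹ * x)⁻¹ := by
  set y := (x' : Γ)⁻¹ * x with hy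
  have hyG : y ∈ G := G.mul_mem (G.inv_mem x'.2) x.2
  have e1 : y * ((c : Γ) * s) * y⁻¹ = (c' : Γ) * s := by
    calc y * ((c : Γ) * s) * y⁻¹ = (x' : Γ)⁻¹ * ((x : Γ) * ((c : Γ) * s) * (x : Γ)⁻¹) * x' := by
          simp [hy, mul_assoc]
      _ = (c' : Γ) * s := by rw [he]; simp [mul_assoc]
  obtain ⟨m, hm1, hm2⟩ := Nat.chineseRemainder h.cop 0 1
  have hpow : ∀ d : C, ((d : Γ) * s) ^ m = s := fun d => by
    have hc : Commute (d : Γ) s := ((hC _).1 d.2).2
    have hd : orderOf (d : Γ) ∣ m := by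
      have := Subgroup.orderOf_dvd_natCard G ((hC _).1 d.2).1
      exact this.trans (Nat.modEq_zero_iff_dvd.1 hm1)
    rw [hc.mul_pow, orderOf_dvd_iff_pow_eq_one.1 hd, one_mul]
    conv_rhs => rw [← pow_one s]
    exact pow_eq_pow_iff_modEq.2 hm2
  have e2 : y * s * y⁻¹ = s := by
    have := congrArg (· ^ m) e1
    simp only [conj_pow, hpow] at this
    exact this
  refine ⟨(hC _).2 ⟨hyG, mul_inv_eq_iff_eq_mul.1 e2⟩, mul_right_cancel (b := s) ?_⟩
  rw [← e1]
  nth_rewrite 2 [← e2]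
  simp [mul_assoc]

/-- The coset of `s` is covered by the conjugates of `C s`, each element `|C|` times. -/
theorem card_fiber [DecidableEq Γ] (g : G) : (Finset.univ.filter fun p : G × C =>
    (p.1 : Γ) * ((p.2 : Γ) * s) * (p.1 : Γ)⁻¹ * s⁻¹ = g).card = Nat.card C := by
  classical
  haveI := quot_comm h
  have hmem : ∀ p : G × C, (p.1 : Γ) * ((p.2 : Γ) * s) * (p.1 : Γ)⁻¹ * s⁻¹ ∈ G := fun p => by
    rw [← QuotientGroup.eq_one_iff]
    simp only [QuotientGroup.mk_mul, QuotientGroup.mk_inv, (QuotientGroup.eq_one_iff _).2 p.1.2,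
      (QuotientGroup.eq_one_iff _).2 ((hC _).1 p.2.2).1, one_mul, inv_one, mul_one, mul_inv_cancel]
  let Φ : G × C → G := fun p => ⟨_, hmem p⟩
  have hfilter : ∀ a : G, (Finset.univ.filter fun p : G × C =>
      (p.1 : Γ) * ((p.2 : Γ) * s) * (p.1 : Γ)⁻¹ * s⁻¹ = a) = Finset.univ.filter fun p => Φ p = a := fun a => by
    ext p; simp [Φ, Subtype.ext_iff]
  have hle : ∀ a ∈ (Finset.univ : Finset G), (Finset.univ.filter fun p => Φ p = a).card ≤ Nat.card C := by
    intro a _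
    rcases (Finset.univ.filter fun p => Φ p = a).eq_empty_or_nonempty with h0 | ⟨p0, hp0⟩
    · rw [h0]; simp
    rw [Nat.card_eq_fintype_card, ← Finset.card_univ]
    have he : ∀ p, p ∈ (Finset.univ.filter fun p => Φ p = a) →
        (p.1 : Γ) * ((p.2 : Γ) * s) * (p.1 : Γ)⁻¹ = (p0.1 : Γ) * ((p0.2 : Γ) * s) * (p0.1 : Γ)⁻¹ := fun p hp => by
      have := ((Finset.mem_filter.1 hp).2.trans (Finset.mem_filter.1 hp0).2.symm)
      exact mul_right_cancel (congrArg Subtype.val this)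
    refine Finset.card_le_card_of_injOn (fun p => if hy : (p0.1 : Γ)⁻¹ * p.1 ∈ C then (⟨_, hy⟩ : C) else 1)
      (fun _ _ => Finset.mem_univ _) fun p hp q hq hpq => ?_
    obtain ⟨hyp, hcp⟩ := conj_fiber h hC (he p hp)
    obtain ⟨hyq, hcq⟩ := conj_fiber h hC (he q hq)
    simp only [hyp, hyq, dif_pos, Subtype.mk.injEq] at hpq
    have h1 : p.1 = q.1 := Subtype.ext (mul_left_cancel hpq)
    refine Prod.ext h1 (Subtype.ext ?_)
    rw [hcp, hpq] at hcq
    exact mul_left_cancel (mul_right_cancel hcq)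
  have htot : ∑ a : G, (Finset.univ.filter fun p => Φ p = a).card = ∑ _a : G, Nat.card C := by
    rw [← Finset.card_eq_sum_card_fiberwise (fun p _ => Finset.mem_univ (Φ p)), Finset.sum_const, Finset.card_univ,
      Finset.card_univ, Fintype.card_prod, smul_eq_mul, Nat.card_eq_fintype_card]
  rw [hfilter]
  exact (Finset.sum_eq_sum_iff_of_le hle).1 htot g (Finset.mem_univ _)

/-- A class function summed over the coset. -/
theorem sum_coset {F : Γ → ℂ} (hF : IsClassFunction Γ F) :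
    (Nat.card C : ℂ) * ∑ g : G, F ((g : Γ) * s) = (Nat.card G : ℂ) * ∑ c : C, F ((c : Γ) * s) := by
  classical
  haveI := quot_comm h
  have hmem : ∀ p : G × C, (p.1 : Γ) * ((p.2 : Γ) * s) * (p.1 : Γ)⁻¹ * s⁻¹ ∈ G := fun p => by
    rw [← QuotientGroup.eq_one_iff]
    simp only [QuotientGroup.mk_mul, QuotientGroup.mk_inv, (QuotientGroup.eq_one_iff _).2 p.1.2,
      (QuotientGroup.eq_one_iff _).2 ((hC _).1 p.2.2).1, one_mul, inv_one, mul_one, mul_inv_cancel]
  have h1 : ∑ p : G × C, F ((p.1 : Γ) * ((p.2 : Γ) * s) * (p.1 : Γ)⁻¹) = (Nat.card G : ℂ) * ∑ c : C, F ((c : Γ) * s) := by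
    rw [Fintype.sum_prod_type, Finset.sum_congr rfl (g := fun _ => ∑ c : C, F ((c : Γ) * s)) fun x _ =>
      Finset.sum_congr rfl fun c _ => hF _ _, Finset.sum_const, Finset.card_univ, ← Nat.card_eq_fintype_card,
      nsmul_eq_mul]
  rw [← h1, ← Finset.sum_fiberwise Finset.univ (fun p : G × C => (⟨_, hmem p⟩ : G)), Finset.mul_sum]
  refine Finset.sum_congr rfl fun g _ => ?_
  rw [Finset.sum_congr rfl (g := fun _ => F ((g : Γ) * s)) fun p hp => ?_, Finset.sum_const, nsmul_eq_mul]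
  · congr 2
    rw [← card_fiber h hC g]
    exact congrArg Finset.card (by ext p; simp [Subtype.ext_iff])
  · have := congrArg Subtype.val (Finset.mem_filter.1 hp).2
    rw [← this, inv_mul_cancel_right]

end Sum

/-- A canonical extension: irreducible restriction and determinantal order prime to `orderOf s`. -/
def IsCanonical (χ : IrrCharacter G) (ψ : IrrCharacter Γ) : Prop :=
  (∀ g : G, (ψ : Γ → ℂ) g = (χ : G → ℂ) g) ∧ (detOrder (ψ : Γ → ℂ)).Coprime (orderOf s)

/-- A canonical extension is fixed by every Galois twist trivial on the values on `G`. -/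
theorem canonical_pow {χ : IrrCharacter G} {ψ : IrrCharacter Γ} (hψ : IsCanonical (s := s) χ ψ) {k : ℕ}
    (hk : k.Coprime (Nat.card Γ)) (hkG : ∀ g : G, g ^ k = g) (γ : Γ) : (ψ : Γ → ℂ) (γ ^ k) = (ψ : Γ → ℂ) γ := by
  classical
  obtain ⟨hres, hcop⟩ := hψ
  set n := orderOf s with hn
  have hn0 : n ≠ 0 := (orderOf_pos s).ne'
  have htw : IsIrrCharacter Γ (fun γ => (ψ : Γ → ℂ) (γ ^ k)) := BrauerInd.isIrr_pow hk ψ.2
  obtain ⟨f, hf, hfψ⟩ := Clifford.extension_eq_linear_mul (N := G) χ.2 ψ.2 hres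
    (χ' := fun γ => (ψ : Γ → ℂ) (γ ^ k)) htw fun g => by
      rw [← Subgroup.coe_pow, hres, hkG]
  suffices hs : f s = 1 by
    have := congrFun hfψ γ
    simpa [hom_trivial h hf hs γ] using this
  obtain ⟨m, ρ, hρ, hρψ⟩ := ψ.2
  obtain ⟨ι, hι, μ, hcard, hμ, hdet, htr⟩ := EigenProd.exists_eigenbasis (A := ρ s) hn0
    (by rw [← map_pow, pow_orderOf_eq_one, map_one])
  have hval : ∀ j : ℕ, (ψ : Γ → ℂ) (s ^ j) = ∑ i, μ i ^ j := fun j => by
    rw [← htr, ← map_pow, ← hρψ]; rfl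
  have hprod : ∏ i, μ i = 1 := by
    refine Clifford.eq_one_of_pow_coprime hcop.symm ?_ ?_
    · rw [← Finset.prod_pow]; exact Finset.prod_eq_one fun i _ => hμ i
    · have h1 : detChar (ψ : Γ → ℂ) ^ detOrder (ψ : Γ → ℂ) = 1 := pow_orderOf_eq_one _
      have h2 := congrFun h1 s
      rw [Pi.pow_apply, Clifford.detChar_eq ⟨m, ρ, hρ, hρψ⟩ ρ hρψ] at h2
      simp only [hdet, Pi.one_apply] at h2
      exact h2
  have hfn : f s ^ n = 1 := by rw [← map_pow, pow_orderOf_eq_one, map_one]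
  have hsum : ∀ j : ℕ, ∑ i, (μ i ^ k) ^ j = ∑ i, (f s * μ i) ^ j := fun j => by
    have h1 := congrFun hfψ (s ^ j)
    simp only [← pow_mul, map_pow] at h1
    rw [hval, hval, Finset.mul_sum] at h1
    calc ∑ i, (μ i ^ k) ^ j = ∑ i, μ i ^ (j * k) := by simp only [← pow_mul, mul_comm]
      _ = ∑ i, f s ^ j * μ i ^ j := h1
      _ = _ := by simp only [mul_pow]
  have h3 := EigenProd.prod_eq_of_powerSum hn0 (fun i => by rw [← pow_mul, mul_comm, pow_mul, hμ, one_pow])
    (fun i => by rw [mul_pow, hfn, hμ, one_mul]) hsum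
  rw [Finset.prod_pow, hprod, one_pow, Finset.prod_mul_distrib, hprod, mul_one, Finset.prod_const,
    Finset.card_univ] at h3
  refine Clifford.eq_one_of_pow_coprime (coprime_degree h χ) hfn ?_
  have hd : Fintype.card ι = charDegree (χ : G → ℂ) := by
    have h1 := hval 0
    rw [pow_zero, ← Subgroup.coe_one G, hres, apply_one (isCharacter_of_irr χ.2)] at h1
    simp only [pow_zero, Finset.sum_const, Finset.card_univ, nsmul_one] at h1
    exact_mod_cast h1.symm
  rw [← hd, ← h3]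

/-- Every invariant character has a canonical extension. -/
theorem exists_canonical (χ : IrrCharacter G) (hinv : ∀ g g' : G, (g' : Γ) = s * g * s⁻¹ → (χ : G → ℂ) g' = (χ : G → ℂ) g) :
    ∃ ψ : IrrCharacter Γ, IsCanonical (s := s) χ ψ := by
  have hmem : ∀ γ : Γ, γ ∈ Clifford.inertia (N := G) (χ : G → ℂ) := by
    have hs : s ∈ Clifford.inertia (N := G) (χ : G → ℂ) := funext fun n => hinv n _ rfl
    intro γ
    exact (h.gen ▸ sup_le (Clifford.le_inertia (isClassFunction (isCharacter_of_irr χ.2)))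
      (Subgroup.zpowers_le.2 hs) : ⊤ ≤ Clifford.inertia (N := G) (χ : G → ℂ)) (Subgroup.mem_top γ)
  have hinv' : ∀ (γ : Γ) (n : G), (χ : G → ℂ) ⟨γ * n * γ⁻¹, hGn.conj_mem (n : Γ) n.2 γ⟩ = (χ : G → ℂ) n :=
    fun γ n => congrFun (hmem γ) n
  obtain ⟨lam, hlam⟩ := Clifford.exists_detHom χ.2
  have ho : ∀ g : G, lam g ^ Nat.card G = 1 := fun g => by rw [← map_pow, pow_card_eq_one', map_one]
  have hdinv : ∀ (γ : Γ) (n : G), lam ⟨γ * n * γ⁻¹, hGn.conj_mem (n : Γ) n.2 γ⟩ = lam n := fun γ n => by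
    obtain ⟨m, ρ, hρ, hρχ⟩ := χ.2
    have e1 := Clifford.detChar_eq χ.2 ρ hρχ
    have e2 := Clifford.detChar_eq χ.2 (ρ.comp (MulAut.conjNormal γ).toMonoidHom : Representation ℂ G (Fin m → ℂ))
      (funext fun x => by
        refine ((congrFun hρχ _).trans ?_)
        show (χ : G → ℂ) (MulAut.conjNormal γ x) = _
        rw [← hinv' γ x]
        exact congrArg (χ : G → ℂ) (Subtype.ext (MulAut.conjNormal_apply γ x)))
    have e3 := congrFun (e1.symm.trans e2) n
    have e4 := congrFun (hlam.symm.trans e1)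
    show lam _ = lam n
    rw [show (⟨γ * n * γ⁻¹, hGn.conj_mem (n : Γ) n.2 γ⟩ : G) = MulAut.conjNormal γ n from
      Subtype.ext (MulAut.conjNormal_apply γ n).symm]
    rw [e4, e4]
    exact e3.symm
  have hcop : Nat.Coprime G.index (Nat.card G) := by rw [index_eq h]; exact h.cop.symm
  obtain ⟨μ, hμ, hμo⟩ := Clifford.exists_coprime_linearExtension lam hdinv ho hcop
  have hd : (χ : G → ℂ) 1 = (charDegree (χ : G → ℂ) : ℂ) := apply_one (isCharacter_of_irr χ.2)
  have hcd : Nat.Coprime G.index (charDegree (χ : G → ℂ)) := by rw [index_eq h]; exact coprime_degree h χ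
  have hμ' : ∀ n : G, μ n = detChar (χ : G → ℂ) n := fun n => by rw [hμ, hlam]
  obtain ⟨η, hη, hext⟩ := Clifford.exists_charExtension_of_det χ.2 hinv' hd hcd μ hμ'
  obtain ⟨ξ, hξ, hξe, hξd⟩ := Clifford.exists_extension_with_det χ.2 hd hcd hη hext μ hμ'
  refine ⟨⟨ξ, hξ⟩, hξe, ?_⟩
  refine h.cop.coprime_dvd_left ?_
  show orderOf (detChar ξ) ∣ Nat.card G
  rw [hξd]
  exact orderOf_dvd_of_pow_eq_one (funext fun γ => hμo γ)

section Main

variable {C : Subgroup Γ} [Fintype C] (hC : ∀ c, c ∈ C ↔ c ∈ G ∧ c * s = s * c)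
include hC

theorem isClassFunction_coset {F : Γ → ℂ} (hF : IsClassFunction Γ F) :
    IsClassFunction C (fun c : C => F ((c : Γ) * s)) := fun a b => by
  have hb : (b : Γ) * s = s * b := ((hC _).1 b.2).2
  simp only [Subgroup.coe_mul, Subgroup.coe_inv]
  rw [show (b : Γ) * a * (b : Γ)⁻¹ * s = b * ((a : Γ) * s) * (b : Γ)⁻¹ by
    have e : (b : Γ)⁻¹ * s = s * (b : Γ)⁻¹ := ((hC _).1 (C.inv_mem b.2)).2
    simp only [mul_assoc, e], hF]

theorem corr_orth (χ χ' : IrrCharacter G) (ψ ψ' : IrrCharacter Γ)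
    (hres : ∀ g : G, (ψ : Γ → ℂ) g = (χ : G → ℂ) g) (hres' : ∀ g : G, (ψ' : Γ → ℂ) g = (χ' : G → ℂ) g) :
    (χ ≠ χ' → classInner (fun c : C => (ψ : Γ → ℂ) ((c : Γ) * s)) (fun c : C => (ψ' : Γ → ℂ) ((c : Γ) * s)) = 0) ∧
      classInner (fun c : C => (ψ : Γ → ℂ) ((c : Γ) * s)) (fun c : C => (ψ : Γ → ℂ) ((c : Γ) * s)) = 1 := by
  have hcls : ∀ a b : IrrCharacter Γ, IsClassFunction Γ (fun γ => (a : Γ → ℂ) γ * conj ((b : Γ → ℂ) γ)) :=
    fun a b x y => by simp only [isClassFunction (isCharacter_of_irr a.2) x y, isClassFunction (isCharacter_of_irr b.2) x y]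
  have hG : (Nat.card G : ℂ) ≠ 0 := Nat.cast_ne_zero.2 Nat.card_pos.ne'
  refine ⟨fun hne => ?_, ?_⟩
  · have e := sum_coset h hC (hcls ψ ψ')
    rw [(coset_orth h χ χ' ψ ψ' hres hres').1 hne, mul_zero] at e
    rw [classInner_eq, (mul_eq_zero.1 e.symm).resolve_left hG, mul_zero]
  · have e := sum_coset h hC (hcls ψ ψ)
    rw [(coset_orth h χ χ ψ ψ hres hres).2 rfl, mul_comm] at e
    rw [classInner_eq, ← mul_left_cancel₀ hG e, inv_mul_cancel₀ (Nat.cast_ne_zero.2 Nat.card_pos.ne')]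

/-- The correspondent and its sign. -/
theorem exists_sign (χ : IrrCharacter G) (ψ : IrrCharacter Γ) (hψ : IsCanonical (s := s) χ ψ) :
    ∃ β : IrrCharacter C, ∃ ε : ℤ, (ε = 1 ∨ ε = -1) ∧
      (∀ c : C, ∀ j : ℕ, j.Coprime (orderOf s) → (ψ : Γ → ℂ) ((c : Γ) * s ^ j) = (ε : ℂ) * (β : C → ℂ) c) ∧
      classInner (fun c : C => (ψ : Γ → ℂ) c) (β : C → ℂ) ≠ 0 := by
  classical
  haveI : Fintype (IrrCharacter C) := Fintype.ofFinite _
  haveI : Fintype (Subgroup.zpowers s) := Fintype.ofFinite _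
  set n := orderOf s with hn
  have hn0 : n ≠ 0 := (orderOf_pos s).ne'
  have hcomm : ∀ (c : C) (z : Subgroup.zpowers s), Commute (c : Γ) (z : Γ) := fun c z => by
    obtain ⟨i, hi⟩ := z.2
    rw [← hi]
    exact (show Commute (c : Γ) s from ((hC _).1 c.2).2).zpow_right i
  let φ : C × Subgroup.zpowers s →* Γ := MonoidHom.noncommCoprod C.subtype (Subgroup.zpowers s).subtype hcomm
  have hφ : ∀ c z, φ (c, z) = (c : Γ) * (z : Γ) := fun c z => rfl
  have hpow : ∀ (c : C) (j : ℕ), j.Coprime n → (ψ : Γ → ℂ) ((c : Γ) * s ^ j) = (ψ : Γ → ℂ) ((c : Γ) * s) := by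
    intro c j hj
    obtain ⟨k, hk, hk1, hk2⟩ := BrauerInd.exists_pow_part n (Nat.card G) j (card_eq h) h.cop.symm hj
    have hkG : ∀ g : G, g ^ k = g := fun g => Subtype.ext (by
      rw [Subgroup.coe_pow]
      exact hk2 g (h.cop.coprime_dvd_left (Subgroup.orderOf_dvd_natCard G g.2)))
    rw [← canonical_pow h hψ hk hkG ((c : Γ) * s), (show Commute (c : Γ) s from ((hC _).1 c.2).2).mul_pow,
      hk1 s dvd_rfl, hk2 c (h.cop.coprime_dvd_left (Subgroup.orderOf_dvd_natCard G ((hC _).1 c.2).1))]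
  let mult : IrrCharacter C → Subgroup.zpowers s → ℂ := fun β z =>
    classInner (fun c : C => (ψ : Γ → ℂ) ((c : Γ) * (z : Γ))) (β : C → ℂ)
  have hmc : ∀ β, IsCharacter (Subgroup.zpowers s) (mult β) := by
    intro β
    refine isCharacter_of_inner_nat (fun a b => by rw [mul_comm' b a, mul_inv_cancel_right]) fun l => ?_
    obtain ⟨m, hm⟩ := classInner_characters_nat (isCharacter_comp (isCharacter_of_irr ψ.2) φ)
      (isCharacter_mul (isCharacter_comp (isCharacter_of_irr β.2) (MonoidHom.fst C (Subgroup.zpowers s)))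
        (isCharacter_comp (isCharacter_of_irr l.2) (MonoidHom.snd C (Subgroup.zpowers s))))
    refine ⟨m, ?_⟩
    rw [← hm, classInner_eq, classInner_eq, Fintype.sum_prod_type, Finset.sum_comm, Finset.mul_sum,
      Nat.card_prod, Nat.cast_mul, mul_inv]
    rw [Finset.mul_sum]
    refine Finset.sum_congr rfl fun z _ => ?_
    simp only [mult, classInner_eq, Finset.mul_sum, Finset.sum_mul, Pi.mul_apply, MonoidHom.coe_fst,
      MonoidHom.coe_snd, map_mul, hφ]
    exact Finset.sum_congr rfl fun c _ => by ring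
  let s' : Subgroup.zpowers s := ⟨s, Subgroup.mem_zpowers s⟩
  have hint : ∀ β, ∃ a : ℤ, mult β s' = a := by
    intro β
    obtain ⟨lam, hlam, hv⟩ := exists_eigen (hmc β) s'
    haveI : NeZero n := ⟨hn0⟩
    choose e he1 he2 using fun i => (zetaRoot_prim hn0).eq_pow_of_pow_eq_one (ξ := lam i) (by
      have := hlam i
      rwa [Subgroup.orderOf_mk] at this)
    refine BrauerInd.int_of_conjugates_eq hn0 (∑ i, Polynomial.X ^ e i) _ fun j hj => ?_
    rw [map_sum]
    simp only [map_pow, Polynomial.aeval_X]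
    have h1 := hv j
    simp only [← he2, ← pow_mul, mul_comm (e _)] at h1
    simp only [← pow_mul]
    rw [← h1]
    show classInner _ _ = classInner _ _
    congr 1
    funext c
    rw [show ((s' ^ j : Subgroup.zpowers s) : Γ) = s ^ j from rfl, hpow c j hj]
  choose a ha using hint
  have hcl : IsClassFunction C (fun c : C => (ψ : Γ → ℂ) ((c : Γ) * s)) :=
    isClassFunction_coset h hC (isClassFunction (isCharacter_of_irr ψ.2))
  have hexp : (fun c : C => (ψ : Γ → ℂ) ((c : Γ) * s)) = ∑ β : IrrCharacter C, (a β : ℂ) • (β : C → ℂ) := by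
    rw [classFun_expand hcl]
    exact Finset.sum_congr rfl fun β _ => by rw [← ha]
  have hnorm : ∑ β : IrrCharacter C, a β ^ 2 = 1 := by
    have e := (corr_orth h hC χ χ ψ ψ hψ.1 hψ.1).2
    conv_lhs at e => arg 1; rw [hexp]
    rw [classInner_sum_left] at e
    have e2 : ∀ β : IrrCharacter C, classInner ((a β : ℂ) • (β : C → ℂ)) (fun c : C => (ψ : Γ → ℂ) ((c : Γ) * s))
        = ((a β ^ 2 : ℤ) : ℂ) := fun β => by
      rw [classInner_smul_left, classInner_comm, show classInner (fun c : C => (ψ : Γ → ℂ) ((c : Γ) * s)) (β : C → ℂ)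
        = (a β : ℂ) from ha β, map_intCast]
      push_cast; ring
    rw [Finset.sum_congr rfl fun β _ => e2 β] at e
    exact_mod_cast e
  obtain ⟨β, -, hβ⟩ := Finset.exists_ne_zero_of_sum_ne_zero (hnorm.trans_ne one_ne_zero)
  have hsplit := Finset.add_sum_erase Finset.univ (fun β => a β ^ 2) (Finset.mem_univ β)
  rw [hnorm] at hsplit
  have hpos : (0 : ℤ) < a β ^ 2 := lt_of_le_of_ne (sq_nonneg _) (Ne.symm hβ)
  have hrest : (0 : ℤ) ≤ ∑ b ∈ Finset.univ.erase β, a b ^ 2 := Finset.sum_nonneg fun b _ => sq_nonneg _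
  have hzero : ∀ b, b ≠ β → a b = 0 := fun b hb => pow_eq_zero_iff two_ne_zero |>.1
    ((Finset.sum_eq_zero_iff_of_nonneg fun b _ => sq_nonneg (a b)).1 (by omega) b
      (Finset.mem_erase.2 ⟨hb, Finset.mem_univ _⟩))
  refine ⟨β, a β, sq_eq_one_iff.1 (by omega), fun c j hj => ?_, fun h0 => hβ ?_⟩
  · rw [hpow c j hj]
    have := congrFun hexp c
    rw [Finset.sum_apply, Finset.sum_eq_single β (fun b _ hb => by rw [hzero b hb]; simp) (by simp)] at this
    simpa using this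
  · have h1 : mult β 1 = 0 := by
      show classInner _ _ = 0
      rw [show (fun c : C => (ψ : Γ → ℂ) ((c : Γ) * ((1 : Subgroup.zpowers s) : Γ))) = fun c : C => (ψ : Γ → ℂ) c from
        funext fun c => by rw [Subgroup.coe_one, mul_one]]
      exact h0
    have h2 := congrFun (Clifford.eq_zero_of_apply_one (hmc β) h1) s'
    rw [ha, Pi.zero_apply, Int.cast_eq_zero] at h2
    rw [h2]; norm_num

/-- The correspondents span the class functions of `C`. -/
theorem eq_zero_of_orth {φ : C → ℂ} (hφ : IsClassFunction C φ)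
    (horth : ∀ (χ : IrrCharacter G) (ψ : IrrCharacter Γ), (∀ g g' : G, (g' : Γ) = s * g * s⁻¹ → (χ : G → ℂ) g' = (χ : G → ℂ) g) →
      IsCanonical (s := s) χ ψ → classInner φ (fun c : C => (ψ : Γ → ℂ) ((c : Γ) * s)) = 0) : φ = 0 := by
  classical
  haveI : Fintype (IrrCharacter Γ) := Fintype.ofFinite _
  haveI := quot_comm h
  let F : Γ → ℂ := fun γ => ∑ p : G × C,
    if γ = (p.1 : Γ) * ((p.2 : Γ) * s) * (p.1 : Γ)⁻¹ then φ p.2 else 0
  have hF : IsClassFunction Γ F := fun γ x => by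
    obtain ⟨g, hg, i, rfl⟩ := exists_decomp_elt h x
    let e : G ≃ G := (MulAut.conjNormal (s ^ i)).toEquiv.trans (Equiv.mulLeft ⟨g, hg⟩)
    refine (Fintype.sum_equiv (e.prodCongr (Equiv.refl C)) _ _ fun p => ?_).symm
    have hc : Commute (p.2 : Γ) (s ^ i) := (show Commute (p.2 : Γ) s from ((hC _).1 p.2.2).2).zpow_right i
    have he : ((e p.1 : G) : Γ) = g * (s ^ i * p.1 * (s ^ i)⁻¹) :=
      congrArg (g * ·) (MulAut.conjNormal_apply (s ^ i) p.1)
    have hconj : (g * s ^ i) * ((p.1 : Γ) * ((p.2 : Γ) * s) * (p.1 : Γ)⁻¹) * (g * s ^ i)⁻¹ =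
        ((e p.1 : G) : Γ) * ((p.2 : Γ) * s) * ((e p.1 : G) : Γ)⁻¹ := by
      have hs : s ^ i * ((p.2 : Γ) * s) = (p.2 : Γ) * s * s ^ i := by
        rw [← mul_assoc, ← hc.eq, mul_assoc, mul_assoc, (Commute.self_zpow s i).eq]
      rw [he]
      simp only [mul_inv_rev, inv_inv]
      calc _ = g * (s ^ i * (p.1 : Γ)) * ((p.2 : Γ) * s) * ((p.1 : Γ)⁻¹ * ((s ^ i)⁻¹ * g⁻¹)) := by
            simp only [mul_assoc]
        _ = _ := by
          rw [show ∀ a : Γ, g * (s ^ i * (p.1 : Γ) * (s ^ i)⁻¹) * ((p.2 : Γ) * s) * a =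
            g * (s ^ i * (p.1 : Γ)) * ((s ^ i)⁻¹ * ((p.2 : Γ) * s) * s ^ i) * ((s ^ i)⁻¹ * a) from
              fun a => by simp [mul_assoc],
            show (s ^ i)⁻¹ * ((p.2 : Γ) * s) * s ^ i = (p.2 : Γ) * s by
              rw [mul_assoc, ← hs, inv_mul_cancel_left]]
          simp [mul_assoc]
    simp only [Equiv.prodCongr_apply, Prod.map_fst, Prod.map_snd, Equiv.refl_apply, ← hconj,
      conj_injective.eq_iff]
  have hF0 : ∀ Ψ : IrrCharacter Γ, classInner F (Ψ : Γ → ℂ) = 0 := by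
    intro Ψ
    have e : ∑ γ : Γ, F γ * conj ((Ψ : Γ → ℂ) γ) = (Nat.card G : ℂ) * ∑ c : C, φ c * conj ((Ψ : Γ → ℂ) ((c : Γ) * s)) := by
      simp only [F, Finset.sum_mul, ite_mul, zero_mul]
      rw [Finset.sum_comm]
      simp only [Finset.sum_ite_eq', Finset.mem_univ, if_true]
      rw [Fintype.sum_prod_type, Finset.sum_congr rfl (g := fun _ => ∑ c : C, φ c * conj ((Ψ : Γ → ℂ) ((c : Γ) * s)))
        fun x _ => Finset.sum_congr rfl fun c _ => by rw [isClassFunction (isCharacter_of_irr Ψ.2)],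
        Finset.sum_const, Finset.card_univ, ← Nat.card_eq_fintype_card, nsmul_eq_mul]
    rw [classInner_eq, e]
    refine mul_eq_zero_of_right _ (mul_eq_zero_of_right _ ?_)
    obtain ⟨θ, hθ⟩ := exists_restrict_constituent G Ψ
    have hθ' : classInner (fun g : G => (Ψ : Γ → ℂ) g) (θ : G → ℂ) ≠ 0 := by
      rw [classInner_comm]; exact fun h0 => hθ (by simpa using h0)
    by_cases hsT : s ∈ Clifford.inertia (N := G) (θ : G → ℂ)
    · have hinv : ∀ g g' : G, (g' : Γ) = s * g * s⁻¹ → (θ : G → ℂ) g' = (θ : G → ℂ) g := fun g g' hg => by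
        have := congrFun hsT g
        rw [Clifford.conjFun_apply] at this
        rw [← this]
        exact congrArg (θ : G → ℂ) (Subtype.ext hg)
      obtain ⟨ξ, hξ⟩ := exists_canonical h θ hinv
      have hTop : ∀ γ : Γ, Clifford.conjFun γ (θ : G → ℂ) = (θ : G → ℂ) := fun γ =>
        (h.gen ▸ sup_le (Clifford.le_inertia (isClassFunction (isCharacter_of_irr θ.2)))
          (Subgroup.zpowers_le.2 hsT) : ⊤ ≤ Clifford.inertia (N := G) (θ : G → ℂ)) (Subgroup.mem_top γ)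
      have h1θ : ((fun _ => 1) * (θ : G → ℂ) : G → ℂ) = (θ : G → ℂ) := funext fun n => one_mul _
      have hgal := Clifford.gallagher_bijOn (G := Γ) (φ := fun _ : G => (1 : ℂ)) isIrrCharacter_one
        (fun _ => rfl) (h1θ.symm ▸ θ.2) (isCharacter_of_irr ξ.2) hξ.1
      rw [h1θ] at hgal
      have hmem : (Ψ : Γ → ℂ) ∈ {ψ : Γ → ℂ | IsIrrCharacter Γ ψ ∧ classInner (indFun G (θ : G → ℂ)) ψ ≠ 0} := by
        refine ⟨Ψ.2, ?_⟩
        rw [classInner_indFun G _ (isClassFunction (isCharacter_of_irr Ψ.2))]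
        exact hθ
      obtain ⟨b, ⟨hb, hb1⟩, hbΨ⟩ := hgal.surjOn hmem
      have hk := (Clifford.mem_over_one_iff hb).mp hb1
      obtain ⟨q, hq⟩ := exists_quotient_irr ⟨b, hb⟩ G hk
      have hlin : b 1 = 1 := by
        rw [show b 1 = (q : Γ ⧸ G → ℂ) ((1 : Γ) : Γ ⧸ G) from (hq 1).symm, QuotientGroup.mk_one,
          apply_one (isCharacter_of_irr q.2), charDegree_comm q.2, Nat.cast_one]
      obtain ⟨f, rfl⟩ := Clifford.exists_hom_of_linear (isCharacter_of_irr hb) hlin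
      have hz := horth θ ξ hinv hξ
      rw [classInner_eq, mul_eq_zero] at hz
      have hz' := hz.resolve_left (inv_ne_zero (Nat.cast_ne_zero.2 Nat.card_pos.ne'))
      have hv : ∀ c : C, (Ψ : Γ → ℂ) ((c : Γ) * s) = f s * (ξ : Γ → ℂ) ((c : Γ) * s) := fun c => by
        rw [← congrFun hbΨ]
        simp only [Pi.mul_apply, map_mul]
        rw [show f (c : Γ) = 1 from (hk _ ((hC _).1 c.2).1).trans hlin, one_mul]
      simp only [hv, map_mul, mul_left_comm (φ _), ← Finset.mul_sum, hz', mul_zero]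
    · set T := Clifford.inertia (N := G) (θ : G → ℂ) with hT
      have hNT : G ≤ T := Clifford.le_inertia (isClassFunction (isCharacter_of_irr θ.2))
      haveI : Fintype T := Fintype.ofFinite _
      obtain ⟨ξ, -, hind, -, -⟩ := Clifford.exists_inertia_correspondent Ψ.2 θ.2 hθ' T hT hNT
      refine Finset.sum_eq_zero fun c _ => ?_
      rw [← hind]
      refine mul_eq_zero_of_right _ ?_
      rw [indFun, map_mul, map_sum]
      refine mul_eq_zero_of_right _ (Finset.sum_eq_zero fun x _ => ?_)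
      rw [extendByZero_of_not_mem, map_zero]
      intro hm
      refine hsT ?_
      have hdiff : (x⁻¹ * ((c : Γ) * s) * x) * s⁻¹ ∈ G := by
        rw [← QuotientGroup.eq_one_iff]
        simp only [QuotientGroup.mk_mul, QuotientGroup.mk_inv, (QuotientGroup.eq_one_iff _).2 ((hC _).1 c.2).1,
          one_mul]
        rw [mul_comm' ((x : Γ ⧸ G)⁻¹) (s : Γ ⧸ G), inv_mul_cancel_right, mul_inv_cancel]
      have := T.mul_mem (T.inv_mem (hNT hdiff)) hm
      simpa [mul_assoc] using this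
  have hFz : F = 0 := by
    rw [classFun_expand hF]
    simp [hF0]
  funext c
  have hc := congrFun hFz ((c : Γ) * s)
  rw [Pi.zero_apply] at hc ⊢
  simp only [F] at hc
  have hval : ∀ p : G × C, (c : Γ) * s = (p.1 : Γ) * ((p.2 : Γ) * s) * (p.1 : Γ)⁻¹ → φ p.2 = φ c := by
    intro p hp
    obtain ⟨hy, he⟩ := conj_fiber h hC (x := (1 : G)) (x' := p.1) (c := c) (c' := p.2) (by simpa using hp)
    rw [← hφ c ⟨_, hy⟩]
    exact congrArg φ (Subtype.ext he)
  rw [Finset.sum_congr rfl (g := fun p => if (c : Γ) * s = (p.1 : Γ) * ((p.2 : Γ) * s) * (p.1 : Γ)⁻¹ then φ c else 0)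
    (fun p _ => by split_ifs with hp <;> [exact hval p hp; rfl]), ← Finset.sum_filter, Finset.sum_const,
    smul_eq_zero] at hc
  refine hc.resolve_left ?_
  rw [Finset.card_eq_zero]
  exact (Finset.nonempty_iff_ne_empty.1 ⟨(1, c), by simp⟩)

end Main

end CfsgLib.CyclicCorr
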